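import Cfsg.Agent.Lib.H35.TCM11A.Chk
set_option autoImplicit false
set_option maxRecDepth 100000
set_option linter.all false
namespace H35.TCM11A
open H35.TC
section
variable {G : Type} [Group G] {g : Lt → G} {H : Subgroup G}
/-- the points of the nodes -/
noncomputable def cP (g : Lt → G) (H : Subgroup G) : ℕ → G ⧸ H := cc (fa g) lt P ((1 : G) : G ⧸ H)
theorem dp_b_0_s (hinv : ∀ x, g (inv x) = (g x)⁻¹) (hr : ∀ r ∈ rels, (r.map g).prod = 1) (hH : ∀ r ∈ subs, (r.map g).prod ∈ H)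
    (j u : ℕ) (hu : u < M) (h : dp_b_0 j u = true) : Good (fa g) T MG M (cP g H) Lt.b u := by
  unfold dp_b_0 at h
  rcases brec_true h with h | h
  · exact lF_good (T := T) (x := Lt.b) (by decide) [Lt.d, Lt.bi, Lt.di, Lt.b, Lt.b] (hole_rel hinv hr (by decide +kernel)) h
  · exact lF_good (T := T) (x := Lt.b) (by decide) [Lt.di, Lt.bi, Lt.bi, Lt.bi, Lt.d] (hole_rel hinv hr (by decide +kernel)) h
theorem dp_b_1_s (hinv : ∀ x, g (inv x) = (g x)⁻¹) (hr : ∀ r ∈ rels, (r.map g).prod = 1) (hH : ∀ r ∈ subs, (r.map g).prod ∈ H)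
    (j u : ℕ) (hu : u < M) (h : dp_b_1 j u = true) : Good (fa g) T MG M (cP g H) Lt.b u := by
  unfold dp_b_1 at h
  rcases brec_true h with h | h
  · exact lF_good (T := T) (x := Lt.b) (by decide) [Lt.b, Lt.b, Lt.d, Lt.bi, Lt.di] (hole_rel hinv hr (by decide +kernel)) h
  · exact dp_b_0_s hinv hr hH j u hu h
theorem dp_b_2_s (hinv : ∀ x, g (inv x) = (g x)⁻¹) (hr : ∀ r ∈ rels, (r.map g).prod = 1) (hH : ∀ r ∈ subs, (r.map g).prod ∈ H)
    (j u : ℕ) (hu : u < M) (h : dp_b_2 j u = true) : Good (fa g) T MG M (cP g H) Lt.b u := by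
  unfold dp_b_2 at h
  rcases brec_true h with h | h
  · exact lF_good (T := T) (x := Lt.b) (by decide) [Lt.di, Lt.di, Lt.bi, Lt.e, Lt.d, Lt.ei] (hole_rel hinv hr (by decide +kernel)) h
  · exact lS_good (T := T) (x := Lt.b) (by decide) hu [Lt.di, Lt.bi, Lt.bi, Lt.bi, Lt.d] (hole_rel hinv hr (by decide +kernel)) h
theorem dp_b_3_s (hinv : ∀ x, g (inv x) = (g x)⁻¹) (hr : ∀ r ∈ rels, (r.map g).prod = 1) (hH : ∀ r ∈ subs, (r.map g).prod ∈ H)
    (j u : ℕ) (hu : u < M) (h : dp_b_3 j u = true) : Good (fa g) T MG M (cP g H) Lt.b u := by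
  unfold dp_b_3 at h
  rcases brec_true h with h | h
  · exact lF_good (T := T) (x := Lt.b) (by decide) [Lt.b, Lt.d, Lt.bi, Lt.di, Lt.b] (hole_rel hinv hr (by decide +kernel)) h
  · exact lF_good (T := T) (x := Lt.b) (by decide) [Lt.d, Lt.d, Lt.bi, Lt.e, Lt.di, Lt.ei] (hole_rel hinv hr (by decide +kernel)) h
theorem dp_b_4_s (hinv : ∀ x, g (inv x) = (g x)⁻¹) (hr : ∀ r ∈ rels, (r.map g).prod = 1) (hH : ∀ r ∈ subs, (r.map g).prod ∈ H)
    (j u : ℕ) (hu : u < M) (h : dp_b_4 j u = true) : Good (fa g) T MG M (cP g H) Lt.b u := by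
  unfold dp_b_4 at h
  rcases brec_true h with h | h
  · exact dp_b_2_s hinv hr hH j u hu h
  · exact dp_b_3_s hinv hr hH j u hu h
theorem dp_b_5_s (hinv : ∀ x, g (inv x) = (g x)⁻¹) (hr : ∀ r ∈ rels, (r.map g).prod = 1) (hH : ∀ r ∈ subs, (r.map g).prod ∈ H)
    (j u : ℕ) (hu : u < M) (h : dp_b_5 j u = true) : Good (fa g) T MG M (cP g H) Lt.b u := by
  unfold dp_b_5 at h
  rcases brec_true h with h | h
  · exact lS_good (T := T) (x := Lt.b) (by decide) hu [Lt.b, Lt.b, Lt.d, Lt.bi, Lt.di] (hole_rel hinv hr (by decide +kernel)) h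
  · exact lS_good (T := T) (x := Lt.b) (by decide) hu [Lt.d, Lt.bi, Lt.di, Lt.b, Lt.b] (hole_rel hinv hr (by decide +kernel)) h
theorem dp_b_6_s (hinv : ∀ x, g (inv x) = (g x)⁻¹) (hr : ∀ r ∈ rels, (r.map g).prod = 1) (hH : ∀ r ∈ subs, (r.map g).prod ∈ H)
    (j u : ℕ) (hu : u < M) (h : dp_b_6 j u = true) : Good (fa g) T MG M (cP g H) Lt.b u := by
  unfold dp_b_6 at h
  rcases brec_true h with h | h
  · exact lF_good (T := T) (x := Lt.b) (by decide) [Lt.d, Lt.d, Lt.b, Lt.di, Lt.di, Lt.b] (hole_rel hinv hr (by decide +kernel)) h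
  · exact lF_good (T := T) (x := Lt.b) (by decide) [Lt.b, Lt.d, Lt.d, Lt.b, Lt.di, Lt.di] (hole_rel hinv hr (by decide +kernel)) h
theorem dp_b_7_s (hinv : ∀ x, g (inv x) = (g x)⁻¹) (hr : ∀ r ∈ rels, (r.map g).prod = 1) (hH : ∀ r ∈ subs, (r.map g).prod ∈ H)
    (j u : ℕ) (hu : u < M) (h : dp_b_7 j u = true) : Good (fa g) T MG M (cP g H) Lt.b u := by
  unfold dp_b_7 at h
  rcases brec_true h with h | h
  · exact dp_b_5_s hinv hr hH j u hu h
  · exact dp_b_6_s hinv hr hH j u hu h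
theorem dp_b_8_s (hinv : ∀ x, g (inv x) = (g x)⁻¹) (hr : ∀ r ∈ rels, (r.map g).prod = 1) (hH : ∀ r ∈ subs, (r.map g).prod ∈ H)
    (j u : ℕ) (hu : u < M) (h : dp_b_8 j u = true) : Good (fa g) T MG M (cP g H) Lt.b u := by
  unfold dp_b_8 at h
  rcases brec_true h with h | h
  · exact lF_good (T := T) (x := Lt.b) (by decide) [Lt.di, Lt.di, Lt.b, Lt.b, Lt.d, Lt.d] (hole_rel hinv hr (by decide +kernel)) h
  · exact lF_good (T := T) (x := Lt.b) (by decide) [Lt.e, Lt.bi, Lt.d, Lt.ei, Lt.bi, Lt.di, Lt.ei, Lt.d, Lt.b, Lt.e, Lt.di] (hole_rel hinv hr (by decide +kernel)) h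
theorem dp_b_9_s (hinv : ∀ x, g (inv x) = (g x)⁻¹) (hr : ∀ r ∈ rels, (r.map g).prod = 1) (hH : ∀ r ∈ subs, (r.map g).prod ∈ H)
    (j u : ℕ) (hu : u < M) (h : dp_b_9 j u = true) : Good (fa g) T MG M (cP g H) Lt.b u := by
  unfold dp_b_9 at h
  rcases brec_true h with h | h
  · exact lS_good (T := T) (x := Lt.b) (by decide) hu [Lt.d, Lt.d, Lt.bi, Lt.e, Lt.di, Lt.ei] (hole_rel hinv hr (by decide +kernel)) h
  · exact lS_good (T := T) (x := Lt.b) (by decide) hu [Lt.di, Lt.di, Lt.bi, Lt.e, Lt.d, Lt.ei] (hole_rel hinv hr (by decide +kernel)) h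
theorem dp_b_10_s (hinv : ∀ x, g (inv x) = (g x)⁻¹) (hr : ∀ r ∈ rels, (r.map g).prod = 1) (hH : ∀ r ∈ subs, (r.map g).prod ∈ H)
    (j u : ℕ) (hu : u < M) (h : dp_b_10 j u = true) : Good (fa g) T MG M (cP g H) Lt.b u := by
  unfold dp_b_10 at h
  rcases brec_true h with h | h
  · exact dp_b_8_s hinv hr hH j u hu h
  · exact dp_b_9_s hinv hr hH j u hu h
theorem dp_b_11_s (hinv : ∀ x, g (inv x) = (g x)⁻¹) (hr : ∀ r ∈ rels, (r.map g).prod = 1) (hH : ∀ r ∈ subs, (r.map g).prod ∈ H)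
    (j u : ℕ) (hu : u < M) (h : dp_b_11 j u = true) : Good (fa g) T MG M (cP g H) Lt.b u := by
  unfold dp_b_11 at h
  rcases brec_true h with h | h
  · exact lS_good (T := T) (x := Lt.b) (by decide) hu [Lt.e, Lt.di, Lt.b, Lt.ei, Lt.bi, Lt.d, Lt.ei, Lt.bi, Lt.di, Lt.e, Lt.d] (hole_rel hinv hr (by decide +kernel)) h
  · exact lF_good (T := T) (x := Lt.b) (by decide) [Lt.d, Lt.ei, Lt.di, Lt.bi, Lt.e, Lt.e, Lt.d, Lt.b, Lt.di, Lt.ei, Lt.ei] (hole_rel hinv hr (by decide +kernel)) h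
theorem dp_b_12_s (hinv : ∀ x, g (inv x) = (g x)⁻¹) (hr : ∀ r ∈ rels, (r.map g).prod = 1) (hH : ∀ r ∈ subs, (r.map g).prod ∈ H)
    (j u : ℕ) (hu : u < M) (h : dp_b_12 j u = true) : Good (fa g) T MG M (cP g H) Lt.b u := by
  unfold dp_b_12 at h
  rcases brec_true h with h | h
  · exact lF_good (T := T) (x := Lt.b) (by decide) [Lt.e, Lt.di, Lt.b, Lt.ei, Lt.bi, Lt.d, Lt.ei, Lt.bi, Lt.di, Lt.e, Lt.d] (hole_rel hinv hr (by decide +kernel)) h
  · exact dp_b_11_s hinv hr hH j u hu h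
theorem dp_b_13_s (hinv : ∀ x, g (inv x) = (g x)⁻¹) (hr : ∀ r ∈ rels, (r.map g).prod = 1) (hH : ∀ r ∈ subs, (r.map g).prod ∈ H)
    (j u : ℕ) (hu : u < M) (h : dp_b_13 j u = true) : Good (fa g) T MG M (cP g H) Lt.b u := by
  unfold dp_b_13 at h
  rcases brec_true h with h | h
  · exact lH_good (T := T) (x := Lt.b) (by decide) [] [] (by rw [show cP g H 0 = _ from cc_zero]; exact sub_rel hinv (hH _ (by decide))) h
  · exact lF_good (T := T) (x := Lt.b) (by decide) [Lt.d, Lt.e, Lt.di, Lt.bi, Lt.e, Lt.e, Lt.d, Lt.bi, Lt.di, Lt.ei, Lt.ei] (hole_rel hinv hr (by decide +kernel)) h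
theorem dp_b_14_s (hinv : ∀ x, g (inv x) = (g x)⁻¹) (hr : ∀ r ∈ rels, (r.map g).prod = 1) (hH : ∀ r ∈ subs, (r.map g).prod ∈ H)
    (j u : ℕ) (hu : u < M) (h : dp_b_14 j u = true) : Good (fa g) T MG M (cP g H) Lt.b u := by
  unfold dp_b_14 at h
  rcases brec_true h with h | h
  · exact lS_good (T := T) (x := Lt.b) (by decide) hu [Lt.e, Lt.bi, Lt.d, Lt.ei, Lt.bi, Lt.di, Lt.ei, Lt.d, Lt.b, Lt.e, Lt.di] (hole_rel hinv hr (by decide +kernel)) h
  · exact lF_good (T := T) (x := Lt.b) (by decide) [Lt.e, Lt.di, Lt.b, Lt.e, Lt.bi, Lt.d, Lt.ei, Lt.bi, Lt.di, Lt.ei, Lt.d] (hole_rel hinv hr (by decide +kernel)) h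
theorem dp_b_15_s (hinv : ∀ x, g (inv x) = (g x)⁻¹) (hr : ∀ r ∈ rels, (r.map g).prod = 1) (hH : ∀ r ∈ subs, (r.map g).prod ∈ H)
    (j u : ℕ) (hu : u < M) (h : dp_b_15 j u = true) : Good (fa g) T MG M (cP g H) Lt.b u := by
  unfold dp_b_15 at h
  rcases brec_true h with h | h
  · exact lS_good (T := T) (x := Lt.b) (by decide) hu [Lt.b, Lt.d, Lt.bi, Lt.di, Lt.b] (hole_rel hinv hr (by decide +kernel)) h
  · exact dp_b_14_s hinv hr hH j u hu h
theorem dp_b_16_s (hinv : ∀ x, g (inv x) = (g x)⁻¹) (hr : ∀ r ∈ rels, (r.map g).prod = 1) (hH : ∀ r ∈ subs, (r.map g).prod ∈ H)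
    (j u : ℕ) (hu : u < M) (h : dp_b_16 j u = true) : Good (fa g) T MG M (cP g H) Lt.b u := by
  unfold dp_b_16 at h
  rcases brec_true h with h | h
  · exact dp_b_13_s hinv hr hH j u hu h
  · exact dp_b_15_s hinv hr hH j u hu h
theorem dp_b_17_s (hinv : ∀ x, g (inv x) = (g x)⁻¹) (hr : ∀ r ∈ rels, (r.map g).prod = 1) (hH : ∀ r ∈ subs, (r.map g).prod ∈ H)
    (j u : ℕ) (hu : u < M) (h : dp_b_17 j u = true) : Good (fa g) T MG M (cP g H) Lt.b u := by
  unfold dp_b_17 at h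
  rcases brec_true h with h | h
  · exact dp_b_12_s hinv hr hH j u hu h
  · exact dp_b_16_s hinv hr hH j u hu h
theorem dp_b_18_s (hinv : ∀ x, g (inv x) = (g x)⁻¹) (hr : ∀ r ∈ rels, (r.map g).prod = 1) (hH : ∀ r ∈ subs, (r.map g).prod ∈ H)
    (j u : ℕ) (hu : u < M) (h : dp_b_18 j u = true) : Good (fa g) T MG M (cP g H) Lt.b u := by
  unfold dp_b_18 at h
  rcases brec_true h with h | h
  · exact dp_b_10_s hinv hr hH j u hu h
  · exact dp_b_17_s hinv hr hH j u hu h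
theorem dp_b_19_s (hinv : ∀ x, g (inv x) = (g x)⁻¹) (hr : ∀ r ∈ rels, (r.map g).prod = 1) (hH : ∀ r ∈ subs, (r.map g).prod ∈ H)
    (j u : ℕ) (hu : u < M) (h : dp_b_19 j u = true) : Good (fa g) T MG M (cP g H) Lt.b u := by
  unfold dp_b_19 at h
  rcases brec_true h with h | h
  · exact dp_b_7_s hinv hr hH j u hu h
  · exact dp_b_18_s hinv hr hH j u hu h
theorem dp_b_20_s (hinv : ∀ x, g (inv x) = (g x)⁻¹) (hr : ∀ r ∈ rels, (r.map g).prod = 1) (hH : ∀ r ∈ subs, (r.map g).prod ∈ H)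
    (j u : ℕ) (hu : u < M) (h : dp_b_20 j u = true) : Good (fa g) T MG M (cP g H) Lt.b u := by
  unfold dp_b_20 at h
  rcases brec_true h with h | h
  · exact dp_b_4_s hinv hr hH j u hu h
  · exact dp_b_19_s hinv hr hH j u hu h
theorem dp_b_21_s (hinv : ∀ x, g (inv x) = (g x)⁻¹) (hr : ∀ r ∈ rels, (r.map g).prod = 1) (hH : ∀ r ∈ subs, (r.map g).prod ∈ H)
    (j u : ℕ) (hu : u < M) (h : dp_b_21 j u = true) : Good (fa g) T MG M (cP g H) Lt.b u := by
  unfold dp_b_21 at h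
  rcases brec_true h with h | h
  · exact dp_b_1_s hinv hr hH j u hu h
  · exact dp_b_20_s hinv hr hH j u hu h
theorem snd_b (hinv : ∀ x, g (inv x) = (g x)⁻¹) (hr : ∀ r ∈ rels, (r.map g).prod = 1) (hH : ∀ r ∈ subs, (r.map g).prod ∈ H)
    (j u : ℕ) (hu : u < M) (h : disp_b j u = true) : Good (fa g) T MG M (cP g H) Lt.b u := by
  unfold disp_b at h
  rcases brec_true h with h | h
  · rcases brec_true h with h | h
    · exact lF1_good (T := T) (x := Lt.b) (by decide) .bi (hole_rel hinv hr (by decide +kernel)) h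
    · exact lDef_good (T := T) (x := Lt.b) (by decide) rfl h
  · rcases brec_true h with h | h
    · rcases brec_true h with h | h
      · exact lPar_good (T := T) (x := Lt.b) (x' := Lt.bi) (by decide) rfl (inv_rel hinv _ _ rfl) h
      · exact lS_good (T := T) (x := Lt.b) (by decide) hu [Lt.bi] (hole_rel hinv hr (by decide +kernel)) h
    · exact dp_b_21_s hinv hr hH j u hu h
theorem snc_b (hinv : ∀ x, g (inv x) = (g x)⁻¹) (hr : ∀ r ∈ rels, (r.map g).prod = 1) (hH : ∀ r ∈ subs, (r.map g).prod ∈ H)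
    (j u : ℕ) (hu : u < M) (h : chk_b j u = true) : (T Lt.b u < A ∧ Good (fa g) T MG M (cP g H) Lt.b u) ∨ (A ≤ T Lt.b u ∧ MG u < A) := by
  unfold chk_b at h
  cases hb : Nat.ble A (T_b u) with
  | true => rw [hb] at h; exact Or.inr ⟨le_of_ble hb, le_of_ble h⟩
  | false => rw [hb] at h; exact Or.inl ⟨lt_of_ble_false hb, snd_b hinv hr hH j u hu h⟩
theorem dp_bi_0_s (hinv : ∀ x, g (inv x) = (g x)⁻¹) (hr : ∀ r ∈ rels, (r.map g).prod = 1) (hH : ∀ r ∈ subs, (r.map g).prod ∈ H)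
    (j u : ℕ) (hu : u < M) (h : dp_bi_0 j u = true) : Good (fa g) T MG M (cP g H) Lt.bi u := by
  unfold dp_bi_0 at h
  rcases brec_true h with h | h
  · exact lF_good (T := T) (x := Lt.bi) (by decide) [Lt.d, Lt.b, Lt.di, Lt.bi, Lt.bi] (hole_rel hinv hr (by decide +kernel)) h
  · exact lF_good (T := T) (x := Lt.bi) (by decide) [Lt.bi, Lt.d, Lt.b, Lt.di, Lt.bi] (hole_rel hinv hr (by decide +kernel)) h
theorem dp_bi_1_s (hinv : ∀ x, g (inv x) = (g x)⁻¹) (hr : ∀ r ∈ rels, (r.map g).prod = 1) (hH : ∀ r ∈ subs, (r.map g).prod ∈ H)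
    (j u : ℕ) (hu : u < M) (h : dp_bi_1 j u = true) : Good (fa g) T MG M (cP g H) Lt.bi u := by
  unfold dp_bi_1 at h
  rcases brec_true h with h | h
  · exact lF_good (T := T) (x := Lt.bi) (by decide) [Lt.bi, Lt.bi, Lt.d, Lt.b, Lt.di] (hole_rel hinv hr (by decide +kernel)) h
  · exact lS_good (T := T) (x := Lt.bi) (by decide) hu [Lt.di, Lt.b, Lt.b, Lt.b, Lt.d] (hole_rel hinv hr (by decide +kernel)) h
theorem dp_bi_2_s (hinv : ∀ x, g (inv x) = (g x)⁻¹) (hr : ∀ r ∈ rels, (r.map g).prod = 1) (hH : ∀ r ∈ subs, (r.map g).prod ∈ H)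
    (j u : ℕ) (hu : u < M) (h : dp_bi_2 j u = true) : Good (fa g) T MG M (cP g H) Lt.bi u := by
  unfold dp_bi_2 at h
  rcases brec_true h with h | h
  · exact lF_good (T := T) (x := Lt.bi) (by decide) [Lt.di, Lt.di, Lt.bi, Lt.bi, Lt.d, Lt.d] (hole_rel hinv hr (by decide +kernel)) h
  · exact lF_good (T := T) (x := Lt.bi) (by decide) [Lt.e, Lt.d, Lt.ei, Lt.b, Lt.di, Lt.di] (hole_rel hinv hr (by decide +kernel)) h
theorem dp_bi_3_s (hinv : ∀ x, g (inv x) = (g x)⁻¹) (hr : ∀ r ∈ rels, (r.map g).prod = 1) (hH : ∀ r ∈ subs, (r.map g).prod ∈ H)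
    (j u : ℕ) (hu : u < M) (h : dp_bi_3 j u = true) : Good (fa g) T MG M (cP g H) Lt.bi u := by
  unfold dp_bi_3 at h
  rcases brec_true h with h | h
  · exact lF_good (T := T) (x := Lt.bi) (by decide) [Lt.e, Lt.di, Lt.ei, Lt.b, Lt.d, Lt.d] (hole_rel hinv hr (by decide +kernel)) h
  · exact dp_bi_2_s hinv hr hH j u hu h
theorem dp_bi_4_s (hinv : ∀ x, g (inv x) = (g x)⁻¹) (hr : ∀ r ∈ rels, (r.map g).prod = 1) (hH : ∀ r ∈ subs, (r.map g).prod ∈ H)
    (j u : ℕ) (hu : u < M) (h : dp_bi_4 j u = true) : Good (fa g) T MG M (cP g H) Lt.bi u := by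
  unfold dp_bi_4 at h
  rcases brec_true h with h | h
  · exact dp_bi_1_s hinv hr hH j u hu h
  · exact dp_bi_3_s hinv hr hH j u hu h
theorem dp_bi_5_s (hinv : ∀ x, g (inv x) = (g x)⁻¹) (hr : ∀ r ∈ rels, (r.map g).prod = 1) (hH : ∀ r ∈ subs, (r.map g).prod ∈ H)
    (j u : ℕ) (hu : u < M) (h : dp_bi_5 j u = true) : Good (fa g) T MG M (cP g H) Lt.bi u := by
  unfold dp_bi_5 at h
  rcases brec_true h with h | h
  · exact lS_good (T := T) (x := Lt.bi) (by decide) hu [Lt.bi, Lt.d, Lt.b, Lt.di, Lt.bi] (hole_rel hinv hr (by decide +kernel)) h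
  · exact lS_good (T := T) (x := Lt.bi) (by decide) hu [Lt.d, Lt.b, Lt.di, Lt.bi, Lt.bi] (hole_rel hinv hr (by decide +kernel)) h
theorem dp_bi_6_s (hinv : ∀ x, g (inv x) = (g x)⁻¹) (hr : ∀ r ∈ rels, (r.map g).prod = 1) (hH : ∀ r ∈ subs, (r.map g).prod ∈ H)
    (j u : ℕ) (hu : u < M) (h : dp_bi_6 j u = true) : Good (fa g) T MG M (cP g H) Lt.bi u := by
  unfold dp_bi_6 at h
  rcases brec_true h with h | h
  · exact lF_good (T := T) (x := Lt.bi) (by decide) [Lt.d, Lt.ei, Lt.bi, Lt.di, Lt.e, Lt.d, Lt.b, Lt.e, Lt.di, Lt.b, Lt.ei] (hole_rel hinv hr (by decide +kernel)) h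
  · exact lF_good (T := T) (x := Lt.bi) (by decide) [Lt.bi, Lt.d, Lt.d, Lt.bi, Lt.di, Lt.di] (hole_rel hinv hr (by decide +kernel)) h
theorem dp_bi_7_s (hinv : ∀ x, g (inv x) = (g x)⁻¹) (hr : ∀ r ∈ rels, (r.map g).prod = 1) (hH : ∀ r ∈ subs, (r.map g).prod ∈ H)
    (j u : ℕ) (hu : u < M) (h : dp_bi_7 j u = true) : Good (fa g) T MG M (cP g H) Lt.bi u := by
  unfold dp_bi_7 at h
  rcases brec_true h with h | h
  · exact lF_good (T := T) (x := Lt.bi) (by decide) [Lt.d, Lt.d, Lt.bi, Lt.di, Lt.di, Lt.bi] (hole_rel hinv hr (by decide +kernel)) h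
  · exact dp_bi_6_s hinv hr hH j u hu h
theorem dp_bi_8_s (hinv : ∀ x, g (inv x) = (g x)⁻¹) (hr : ∀ r ∈ rels, (r.map g).prod = 1) (hH : ∀ r ∈ subs, (r.map g).prod ∈ H)
    (j u : ℕ) (hu : u < M) (h : dp_bi_8 j u = true) : Good (fa g) T MG M (cP g H) Lt.bi u := by
  unfold dp_bi_8 at h
  rcases brec_true h with h | h
  · exact dp_bi_5_s hinv hr hH j u hu h
  · exact dp_bi_7_s hinv hr hH j u hu h
theorem dp_bi_9_s (hinv : ∀ x, g (inv x) = (g x)⁻¹) (hr : ∀ r ∈ rels, (r.map g).prod = 1) (hH : ∀ r ∈ subs, (r.map g).prod ∈ H)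
    (j u : ℕ) (hu : u < M) (h : dp_bi_9 j u = true) : Good (fa g) T MG M (cP g H) Lt.bi u := by
  unfold dp_bi_9 at h
  rcases brec_true h with h | h
  · exact lS_good (T := T) (x := Lt.bi) (by decide) hu [Lt.d, Lt.ei, Lt.bi, Lt.di, Lt.e, Lt.d, Lt.b, Lt.e, Lt.di, Lt.b, Lt.ei] (hole_rel hinv hr (by decide +kernel)) h
  · exact lS_good (T := T) (x := Lt.bi) (by decide) hu [Lt.bi, Lt.bi, Lt.d, Lt.b, Lt.di] (hole_rel hinv hr (by decide +kernel)) h
theorem dp_bi_10_s (hinv : ∀ x, g (inv x) = (g x)⁻¹) (hr : ∀ r ∈ rels, (r.map g).prod = 1) (hH : ∀ r ∈ subs, (r.map g).prod ∈ H)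
    (j u : ℕ) (hu : u < M) (h : dp_bi_10 j u = true) : Good (fa g) T MG M (cP g H) Lt.bi u := by
  unfold dp_bi_10 at h
  rcases brec_true h with h | h
  · exact lS_good (T := T) (x := Lt.bi) (by decide) hu [Lt.e, Lt.di, Lt.ei, Lt.b, Lt.d, Lt.d] (hole_rel hinv hr (by decide +kernel)) h
  · exact lS_good (T := T) (x := Lt.bi) (by decide) hu [Lt.e, Lt.e, Lt.d, Lt.b, Lt.di, Lt.ei, Lt.ei, Lt.b, Lt.d, Lt.ei, Lt.di] (hole_rel hinv hr (by decide +kernel)) h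
theorem dp_bi_11_s (hinv : ∀ x, g (inv x) = (g x)⁻¹) (hr : ∀ r ∈ rels, (r.map g).prod = 1) (hH : ∀ r ∈ subs, (r.map g).prod ∈ H)
    (j u : ℕ) (hu : u < M) (h : dp_bi_11 j u = true) : Good (fa g) T MG M (cP g H) Lt.bi u := by
  unfold dp_bi_11 at h
  rcases brec_true h with h | h
  · exact dp_bi_9_s hinv hr hH j u hu h
  · exact dp_bi_10_s hinv hr hH j u hu h
theorem dp_bi_12_s (hinv : ∀ x, g (inv x) = (g x)⁻¹) (hr : ∀ r ∈ rels, (r.map g).prod = 1) (hH : ∀ r ∈ subs, (r.map g).prod ∈ H)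
    (j u : ℕ) (hu : u < M) (h : dp_bi_12 j u = true) : Good (fa g) T MG M (cP g H) Lt.bi u := by
  unfold dp_bi_12 at h
  rcases brec_true h with h | h
  · exact lS_good (T := T) (x := Lt.bi) (by decide) hu [Lt.e, Lt.d, Lt.ei, Lt.b, Lt.di, Lt.di] (hole_rel hinv hr (by decide +kernel)) h
  · exact lS_good (T := T) (x := Lt.bi) (by decide) hu [Lt.di, Lt.e, Lt.d, Lt.b, Lt.e, Lt.di, Lt.b, Lt.ei, Lt.bi, Lt.d, Lt.ei] (hole_rel hinv hr (by decide +kernel)) h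
theorem dp_bi_13_s (hinv : ∀ x, g (inv x) = (g x)⁻¹) (hr : ∀ r ∈ rels, (r.map g).prod = 1) (hH : ∀ r ∈ subs, (r.map g).prod ∈ H)
    (j u : ℕ) (hu : u < M) (h : dp_bi_13 j u = true) : Good (fa g) T MG M (cP g H) Lt.bi u := by
  unfold dp_bi_13 at h
  rcases brec_true h with h | h
  · exact lF_good (T := T) (x := Lt.bi) (by decide) [Lt.d, Lt.ei, Lt.bi, Lt.di, Lt.ei, Lt.d, Lt.b, Lt.e, Lt.di, Lt.b, Lt.e] (hole_rel hinv hr (by decide +kernel)) h
  · exact lS_good (T := T) (x := Lt.bi) (by decide) hu [Lt.di, Lt.di, Lt.bi, Lt.bi, Lt.d, Lt.d] (hole_rel hinv hr (by decide +kernel)) h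
theorem dp_bi_14_s (hinv : ∀ x, g (inv x) = (g x)⁻¹) (hr : ∀ r ∈ rels, (r.map g).prod = 1) (hH : ∀ r ∈ subs, (r.map g).prod ∈ H)
    (j u : ℕ) (hu : u < M) (h : dp_bi_14 j u = true) : Good (fa g) T MG M (cP g H) Lt.bi u := by
  unfold dp_bi_14 at h
  rcases brec_true h with h | h
  · exact dp_bi_12_s hinv hr hH j u hu h
  · exact dp_bi_13_s hinv hr hH j u hu h
theorem dp_bi_15_s (hinv : ∀ x, g (inv x) = (g x)⁻¹) (hr : ∀ r ∈ rels, (r.map g).prod = 1) (hH : ∀ r ∈ subs, (r.map g).prod ∈ H)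
    (j u : ℕ) (hu : u < M) (h : dp_bi_15 j u = true) : Good (fa g) T MG M (cP g H) Lt.bi u := by
  unfold dp_bi_15 at h
  rcases brec_true h with h | h
  · exact lF_good (T := T) (x := Lt.bi) (by decide) [Lt.di, Lt.ei, Lt.d, Lt.b, Lt.e, Lt.di, Lt.b, Lt.e, Lt.bi, Lt.d, Lt.ei] (hole_rel hinv hr (by decide +kernel)) h
  · exact lS_good (T := T) (x := Lt.bi) (by decide) hu [Lt.d, Lt.ei, Lt.bi, Lt.di, Lt.ei, Lt.d, Lt.b, Lt.e, Lt.di, Lt.b, Lt.e] (hole_rel hinv hr (by decide +kernel)) h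
theorem dp_bi_16_s (hinv : ∀ x, g (inv x) = (g x)⁻¹) (hr : ∀ r ∈ rels, (r.map g).prod = 1) (hH : ∀ r ∈ subs, (r.map g).prod ∈ H)
    (j u : ℕ) (hu : u < M) (h : dp_bi_16 j u = true) : Good (fa g) T MG M (cP g H) Lt.bi u := by
  unfold dp_bi_16 at h
  rcases brec_true h with h | h
  · exact lS_good (T := T) (x := Lt.bi) (by decide) hu [Lt.d, Lt.d, Lt.bi, Lt.di, Lt.di, Lt.bi] (hole_rel hinv hr (by decide +kernel)) h
  · exact dp_bi_15_s hinv hr hH j u hu h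
theorem dp_bi_17_s (hinv : ∀ x, g (inv x) = (g x)⁻¹) (hr : ∀ r ∈ rels, (r.map g).prod = 1) (hH : ∀ r ∈ subs, (r.map g).prod ∈ H)
    (j u : ℕ) (hu : u < M) (h : dp_bi_17 j u = true) : Good (fa g) T MG M (cP g H) Lt.bi u := by
  unfold dp_bi_17 at h
  rcases brec_true h with h | h
  · exact lF_good (T := T) (x := Lt.bi) (by decide) [Lt.di, Lt.e, Lt.d, Lt.b, Lt.e, Lt.di, Lt.b, Lt.ei, Lt.bi, Lt.d, Lt.ei] (hole_rel hinv hr (by decide +kernel)) h
  · exact lF_good (T := T) (x := Lt.bi) (by decide) [Lt.e, Lt.e, Lt.d, Lt.b, Lt.di, Lt.ei, Lt.ei, Lt.b, Lt.d, Lt.ei, Lt.di] (hole_rel hinv hr (by decide +kernel)) h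
theorem dp_bi_18_s (hinv : ∀ x, g (inv x) = (g x)⁻¹) (hr : ∀ r ∈ rels, (r.map g).prod = 1) (hH : ∀ r ∈ subs, (r.map g).prod ∈ H)
    (j u : ℕ) (hu : u < M) (h : dp_bi_18 j u = true) : Good (fa g) T MG M (cP g H) Lt.bi u := by
  unfold dp_bi_18 at h
  rcases brec_true h with h | h
  · exact lS_good (T := T) (x := Lt.bi) (by decide) hu [Lt.di, Lt.ei, Lt.ei, Lt.b, Lt.d, Lt.e, Lt.di, Lt.bi, Lt.e, Lt.e, Lt.d] (hole_rel hinv hr (by decide +kernel)) h
  · exact lS_good (T := T) (x := Lt.bi) (by decide) hu [Lt.e, Lt.e, Lt.d, Lt.bi, Lt.di, Lt.ei, Lt.ei, Lt.b, Lt.d, Lt.e, Lt.di] (hole_rel hinv hr (by decide +kernel)) h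
theorem dp_bi_19_s (hinv : ∀ x, g (inv x) = (g x)⁻¹) (hr : ∀ r ∈ rels, (r.map g).prod = 1) (hH : ∀ r ∈ subs, (r.map g).prod ∈ H)
    (j u : ℕ) (hu : u < M) (h : dp_bi_19 j u = true) : Good (fa g) T MG M (cP g H) Lt.bi u := by
  unfold dp_bi_19 at h
  rcases brec_true h with h | h
  · exact lF_good (T := T) (x := Lt.bi) (by decide) [Lt.e, Lt.e, Lt.d, Lt.bi, Lt.di, Lt.ei, Lt.ei, Lt.b, Lt.d, Lt.e, Lt.di] (hole_rel hinv hr (by decide +kernel)) h
  · exact dp_bi_18_s hinv hr hH j u hu h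
theorem dp_bi_20_s (hinv : ∀ x, g (inv x) = (g x)⁻¹) (hr : ∀ r ∈ rels, (r.map g).prod = 1) (hH : ∀ r ∈ subs, (r.map g).prod ∈ H)
    (j u : ℕ) (hu : u < M) (h : dp_bi_20 j u = true) : Good (fa g) T MG M (cP g H) Lt.bi u := by
  unfold dp_bi_20 at h
  rcases brec_true h with h | h
  · exact dp_bi_17_s hinv hr hH j u hu h
  · exact dp_bi_19_s hinv hr hH j u hu h
theorem dp_bi_21_s (hinv : ∀ x, g (inv x) = (g x)⁻¹) (hr : ∀ r ∈ rels, (r.map g).prod = 1) (hH : ∀ r ∈ subs, (r.map g).prod ∈ H)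
    (j u : ℕ) (hu : u < M) (h : dp_bi_21 j u = true) : Good (fa g) T MG M (cP g H) Lt.bi u := by
  unfold dp_bi_21 at h
  rcases brec_true h with h | h
  · exact dp_bi_16_s hinv hr hH j u hu h
  · exact dp_bi_20_s hinv hr hH j u hu h
theorem dp_bi_22_s (hinv : ∀ x, g (inv x) = (g x)⁻¹) (hr : ∀ r ∈ rels, (r.map g).prod = 1) (hH : ∀ r ∈ subs, (r.map g).prod ∈ H)
    (j u : ℕ) (hu : u < M) (h : dp_bi_22 j u = true) : Good (fa g) T MG M (cP g H) Lt.bi u := by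
  unfold dp_bi_22 at h
  rcases brec_true h with h | h
  · exact dp_bi_14_s hinv hr hH j u hu h
  · exact dp_bi_21_s hinv hr hH j u hu h
theorem dp_bi_23_s (hinv : ∀ x, g (inv x) = (g x)⁻¹) (hr : ∀ r ∈ rels, (r.map g).prod = 1) (hH : ∀ r ∈ subs, (r.map g).prod ∈ H)
    (j u : ℕ) (hu : u < M) (h : dp_bi_23 j u = true) : Good (fa g) T MG M (cP g H) Lt.bi u := by
  unfold dp_bi_23 at h
  rcases brec_true h with h | h
  · exact dp_bi_11_s hinv hr hH j u hu h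
  · exact dp_bi_22_s hinv hr hH j u hu h
theorem dp_bi_24_s (hinv : ∀ x, g (inv x) = (g x)⁻¹) (hr : ∀ r ∈ rels, (r.map g).prod = 1) (hH : ∀ r ∈ subs, (r.map g).prod ∈ H)
    (j u : ℕ) (hu : u < M) (h : dp_bi_24 j u = true) : Good (fa g) T MG M (cP g H) Lt.bi u := by
  unfold dp_bi_24 at h
  rcases brec_true h with h | h
  · exact dp_bi_8_s hinv hr hH j u hu h
  · exact dp_bi_23_s hinv hr hH j u hu h
theorem dp_bi_25_s (hinv : ∀ x, g (inv x) = (g x)⁻¹) (hr : ∀ r ∈ rels, (r.map g).prod = 1) (hH : ∀ r ∈ subs, (r.map g).prod ∈ H)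
    (j u : ℕ) (hu : u < M) (h : dp_bi_25 j u = true) : Good (fa g) T MG M (cP g H) Lt.bi u := by
  unfold dp_bi_25 at h
  rcases brec_true h with h | h
  · exact dp_bi_4_s hinv hr hH j u hu h
  · exact dp_bi_24_s hinv hr hH j u hu h
theorem dp_bi_26_s (hinv : ∀ x, g (inv x) = (g x)⁻¹) (hr : ∀ r ∈ rels, (r.map g).prod = 1) (hH : ∀ r ∈ subs, (r.map g).prod ∈ H)
    (j u : ℕ) (hu : u < M) (h : dp_bi_26 j u = true) : Good (fa g) T MG M (cP g H) Lt.bi u := by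
  unfold dp_bi_26 at h
  rcases brec_true h with h | h
  · rcases brec_true h with h | h
    · exact lF_good (T := T) (x := Lt.bi) (by decide) [Lt.di, Lt.b, Lt.b, Lt.b, Lt.d] (hole_rel hinv hr (by decide +kernel)) h
    · exact dp_bi_0_s hinv hr hH j u hu h
  · exact dp_bi_25_s hinv hr hH j u hu h
theorem snd_bi (hinv : ∀ x, g (inv x) = (g x)⁻¹) (hr : ∀ r ∈ rels, (r.map g).prod = 1) (hH : ∀ r ∈ subs, (r.map g).prod ∈ H)
    (j u : ℕ) (hu : u < M) (h : disp_bi j u = true) : Good (fa g) T MG M (cP g H) Lt.bi u := by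
  unfold disp_bi at h
  rcases brec_true h with h | h
  · rcases brec_true h with h | h
    · exact lPar_good (T := T) (x := Lt.bi) (x' := Lt.b) (by decide) rfl (inv_rel hinv _ _ rfl) h
    · exact lDef_good (T := T) (x := Lt.bi) (by decide) rfl h
  · rcases brec_true h with h | h
    · rcases brec_true h with h | h
      · exact lF1_good (T := T) (x := Lt.bi) (by decide) .b (hole_rel hinv hr (by decide +kernel)) h
      · exact lS_good (T := T) (x := Lt.bi) (by decide) hu [Lt.b] (hole_rel hinv hr (by decide +kernel)) h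
    · exact dp_bi_26_s hinv hr hH j u hu h
theorem snc_bi (hinv : ∀ x, g (inv x) = (g x)⁻¹) (hr : ∀ r ∈ rels, (r.map g).prod = 1) (hH : ∀ r ∈ subs, (r.map g).prod ∈ H)
    (j u : ℕ) (hu : u < M) (h : chk_bi j u = true) : (T Lt.bi u < A ∧ Good (fa g) T MG M (cP g H) Lt.bi u) ∨ (A ≤ T Lt.bi u ∧ MG u < A) := by
  unfold chk_bi at h
  cases hb : Nat.ble A (T_bi u) with
  | true => rw [hb] at h; exact Or.inr ⟨le_of_ble hb, le_of_ble h⟩
  | false => rw [hb] at h; exact Or.inl ⟨lt_of_ble_false hb, snd_bi hinv hr hH j u hu h⟩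
theorem dp_d_0_s (hinv : ∀ x, g (inv x) = (g x)⁻¹) (hr : ∀ r ∈ rels, (r.map g).prod = 1) (hH : ∀ r ∈ subs, (r.map g).prod ∈ H)
    (j u : ℕ) (hu : u < M) (h : dp_d_0 j u = true) : Good (fa g) T MG M (cP g H) Lt.d u := by
  unfold dp_d_0 at h
  rcases brec_true h with h | h
  · exact lS_good (T := T) (x := Lt.d) (by decide) hu [Lt.b, Lt.di, Lt.bi, Lt.bi, Lt.bi] (hole_rel hinv hr (by decide +kernel)) h
  · exact lS_good (T := T) (x := Lt.d) (by decide) hu [Lt.ei, Lt.b, Lt.di, Lt.di, Lt.bi, Lt.e] (hole_rel hinv hr (by decide +kernel)) h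
theorem dp_d_1_s (hinv : ∀ x, g (inv x) = (g x)⁻¹) (hr : ∀ r ∈ rels, (r.map g).prod = 1) (hH : ∀ r ∈ subs, (r.map g).prod ∈ H)
    (j u : ℕ) (hu : u < M) (h : dp_d_1 j u = true) : Good (fa g) T MG M (cP g H) Lt.d u := by
  unfold dp_d_1 at h
  rcases brec_true h with h | h
  · exact lF_good (T := T) (x := Lt.d) (by decide) [Lt.bi, Lt.di, Lt.b, Lt.b, Lt.b] (hole_rel hinv hr (by decide +kernel)) h
  · exact dp_d_0_s hinv hr hH j u hu h
theorem dp_d_2_s (hinv : ∀ x, g (inv x) = (g x)⁻¹) (hr : ∀ r ∈ rels, (r.map g).prod = 1) (hH : ∀ r ∈ subs, (r.map g).prod ∈ H)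
    (j u : ℕ) (hu : u < M) (h : dp_d_2 j u = true) : Good (fa g) T MG M (cP g H) Lt.d u := by
  unfold dp_d_2 at h
  rcases brec_true h with h | h
  · exact lF_good (T := T) (x := Lt.d) (by decide) [Lt.ei, Lt.b, Lt.di, Lt.di, Lt.bi, Lt.e] (hole_rel hinv hr (by decide +kernel)) h
  · exact dp_d_1_s hinv hr hH j u hu h
theorem dp_d_3_s (hinv : ∀ x, g (inv x) = (g x)⁻¹) (hr : ∀ r ∈ rels, (r.map g).prod = 1) (hH : ∀ r ∈ subs, (r.map g).prod ∈ H)
    (j u : ℕ) (hu : u < M) (h : dp_d_3 j u = true) : Good (fa g) T MG M (cP g H) Lt.d u := by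
  unfold dp_d_3 at h
  rcases brec_true h with h | h
  · exact lF_good (T := T) (x := Lt.d) (by decide) [Lt.d, Lt.bi, Lt.e, Lt.di, Lt.ei, Lt.b] (hole_rel hinv hr (by decide +kernel)) h
  · exact lF_good (T := T) (x := Lt.d) (by decide) [Lt.bi, Lt.di, Lt.di, Lt.bi, Lt.bi, Lt.d] (hole_rel hinv hr (by decide +kernel)) h
theorem dp_d_4_s (hinv : ∀ x, g (inv x) = (g x)⁻¹) (hr : ∀ r ∈ rels, (r.map g).prod = 1) (hH : ∀ r ∈ subs, (r.map g).prod ∈ H)
    (j u : ℕ) (hu : u < M) (h : dp_d_4 j u = true) : Good (fa g) T MG M (cP g H) Lt.d u := by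
  unfold dp_d_4 at h
  rcases brec_true h with h | h
  · exact lF_good (T := T) (x := Lt.d) (by decide) [Lt.b, Lt.di, Lt.di, Lt.b, Lt.b, Lt.d] (hole_rel hinv hr (by decide +kernel)) h
  · exact lS_good (T := T) (x := Lt.d) (by decide) hu [Lt.d, Lt.d, Lt.d, Lt.d] (hole_rel hinv hr (by decide +kernel)) h
theorem dp_d_5_s (hinv : ∀ x, g (inv x) = (g x)⁻¹) (hr : ∀ r ∈ rels, (r.map g).prod = 1) (hH : ∀ r ∈ subs, (r.map g).prod ∈ H)
    (j u : ℕ) (hu : u < M) (h : dp_d_5 j u = true) : Good (fa g) T MG M (cP g H) Lt.d u := by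
  unfold dp_d_5 at h
  rcases brec_true h with h | h
  · exact dp_d_3_s hinv hr hH j u hu h
  · exact dp_d_4_s hinv hr hH j u hu h
theorem dp_d_6_s (hinv : ∀ x, g (inv x) = (g x)⁻¹) (hr : ∀ r ∈ rels, (r.map g).prod = 1) (hH : ∀ r ∈ subs, (r.map g).prod ∈ H)
    (j u : ℕ) (hu : u < M) (h : dp_d_6 j u = true) : Good (fa g) T MG M (cP g H) Lt.d u := by
  unfold dp_d_6 at h
  rcases brec_true h with h | h
  · exact lF_good (T := T) (x := Lt.d) (by decide) [Lt.d, Lt.b, Lt.di, Lt.di, Lt.b, Lt.b] (hole_rel hinv hr (by decide +kernel)) h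
  · exact lS_good (T := T) (x := Lt.d) (by decide) hu [Lt.bi, Lt.di, Lt.b, Lt.b, Lt.b] (hole_rel hinv hr (by decide +kernel)) h
theorem dp_d_7_s (hinv : ∀ x, g (inv x) = (g x)⁻¹) (hr : ∀ r ∈ rels, (r.map g).prod = 1) (hH : ∀ r ∈ subs, (r.map g).prod ∈ H)
    (j u : ℕ) (hu : u < M) (h : dp_d_7 j u = true) : Good (fa g) T MG M (cP g H) Lt.d u := by
  unfold dp_d_7 at h
  rcases brec_true h with h | h
  · exact lF_good (T := T) (x := Lt.d) (by decide) [Lt.bi, Lt.di, Lt.ei, Lt.ei, Lt.b, Lt.d, Lt.e, Lt.di, Lt.bi, Lt.e, Lt.e] (hole_rel hinv hr (by decide +kernel)) h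
  · exact lS_good (T := T) (x := Lt.d) (by decide) hu [Lt.b, Lt.di, Lt.di, Lt.b, Lt.b, Lt.d] (hole_rel hinv hr (by decide +kernel)) h
theorem dp_d_8_s (hinv : ∀ x, g (inv x) = (g x)⁻¹) (hr : ∀ r ∈ rels, (r.map g).prod = 1) (hH : ∀ r ∈ subs, (r.map g).prod ∈ H)
    (j u : ℕ) (hu : u < M) (h : dp_d_8 j u = true) : Good (fa g) T MG M (cP g H) Lt.d u := by
  unfold dp_d_8 at h
  rcases brec_true h with h | h
  · exact lF_good (T := T) (x := Lt.d) (by decide) [Lt.ei, Lt.bi, Lt.di, Lt.ei, Lt.d, Lt.b, Lt.e, Lt.di, Lt.b, Lt.e, Lt.bi] (hole_rel hinv hr (by decide +kernel)) h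
  · exact dp_d_7_s hinv hr hH j u hu h
theorem dp_d_9_s (hinv : ∀ x, g (inv x) = (g x)⁻¹) (hr : ∀ r ∈ rels, (r.map g).prod = 1) (hH : ∀ r ∈ subs, (r.map g).prod ∈ H)
    (j u : ℕ) (hu : u < M) (h : dp_d_9 j u = true) : Good (fa g) T MG M (cP g H) Lt.d u := by
  unfold dp_d_9 at h
  rcases brec_true h with h | h
  · exact dp_d_6_s hinv hr hH j u hu h
  · exact dp_d_8_s hinv hr hH j u hu h
theorem dp_d_10_s (hinv : ∀ x, g (inv x) = (g x)⁻¹) (hr : ∀ r ∈ rels, (r.map g).prod = 1) (hH : ∀ r ∈ subs, (r.map g).prod ∈ H)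
    (j u : ℕ) (hu : u < M) (h : dp_d_10 j u = true) : Good (fa g) T MG M (cP g H) Lt.d u := by
  unfold dp_d_10 at h
  rcases brec_true h with h | h
  · exact lF_good (T := T) (x := Lt.d) (by decide) [Lt.b, Lt.di, Lt.ei, Lt.ei, Lt.b, Lt.d, Lt.ei, Lt.di, Lt.bi, Lt.e, Lt.e] (hole_rel hinv hr (by decide +kernel)) h
  · exact lF_good (T := T) (x := Lt.d) (by decide) [Lt.ei, Lt.bi, Lt.di, Lt.e, Lt.d, Lt.b, Lt.e, Lt.di, Lt.b, Lt.ei, Lt.bi] (hole_rel hinv hr (by decide +kernel)) h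
theorem dp_d_11_s (hinv : ∀ x, g (inv x) = (g x)⁻¹) (hr : ∀ r ∈ rels, (r.map g).prod = 1) (hH : ∀ r ∈ subs, (r.map g).prod ∈ H)
    (j u : ℕ) (hu : u < M) (h : dp_d_11 j u = true) : Good (fa g) T MG M (cP g H) Lt.d u := by
  unfold dp_d_11 at h
  rcases brec_true h with h | h
  · exact lS_good (T := T) (x := Lt.d) (by decide) hu [Lt.b, Lt.di, Lt.ei, Lt.ei, Lt.b, Lt.d, Lt.ei, Lt.di, Lt.bi, Lt.e, Lt.e] (hole_rel hinv hr (by decide +kernel)) h
  · exact dp_d_10_s hinv hr hH j u hu h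
theorem dp_d_12_s (hinv : ∀ x, g (inv x) = (g x)⁻¹) (hr : ∀ r ∈ rels, (r.map g).prod = 1) (hH : ∀ r ∈ subs, (r.map g).prod ∈ H)
    (j u : ℕ) (hu : u < M) (h : dp_d_12 j u = true) : Good (fa g) T MG M (cP g H) Lt.d u := by
  unfold dp_d_12 at h
  rcases brec_true h with h | h
  · exact lS_good (T := T) (x := Lt.d) (by decide) hu [Lt.bi, Lt.di, Lt.di, Lt.bi, Lt.bi, Lt.d] (hole_rel hinv hr (by decide +kernel)) h
  · exact dp_d_11_s hinv hr hH j u hu h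
theorem dp_d_13_s (hinv : ∀ x, g (inv x) = (g x)⁻¹) (hr : ∀ r ∈ rels, (r.map g).prod = 1) (hH : ∀ r ∈ subs, (r.map g).prod ∈ H)
    (j u : ℕ) (hu : u < M) (h : dp_d_13 j u = true) : Good (fa g) T MG M (cP g H) Lt.d u := by
  unfold dp_d_13 at h
  rcases brec_true h with h | h
  · exact lS_good (T := T) (x := Lt.d) (by decide) hu [Lt.b, Lt.e, Lt.di, Lt.b, Lt.e, Lt.bi, Lt.d, Lt.ei, Lt.bi, Lt.di, Lt.ei] (hole_rel hinv hr (by decide +kernel)) h
  · exact lS_good (T := T) (x := Lt.d) (by decide) hu [Lt.ei, Lt.bi, Lt.di, Lt.e, Lt.d, Lt.b, Lt.e, Lt.di, Lt.b, Lt.ei, Lt.bi] (hole_rel hinv hr (by decide +kernel)) h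
theorem dp_d_14_s (hinv : ∀ x, g (inv x) = (g x)⁻¹) (hr : ∀ r ∈ rels, (r.map g).prod = 1) (hH : ∀ r ∈ subs, (r.map g).prod ∈ H)
    (j u : ℕ) (hu : u < M) (h : dp_d_14 j u = true) : Good (fa g) T MG M (cP g H) Lt.d u := by
  unfold dp_d_14 at h
  rcases brec_true h with h | h
  · exact lS_good (T := T) (x := Lt.d) (by decide) hu [Lt.e, Lt.di, Lt.bi, Lt.e, Lt.e, Lt.d, Lt.bi, Lt.di, Lt.ei, Lt.ei, Lt.b] (hole_rel hinv hr (by decide +kernel)) h
  · exact lS_good (T := T) (x := Lt.d) (by decide) hu [Lt.d, Lt.bi, Lt.di, Lt.di, Lt.bi, Lt.bi] (hole_rel hinv hr (by decide +kernel)) h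
theorem dp_d_15_s (hinv : ∀ x, g (inv x) = (g x)⁻¹) (hr : ∀ r ∈ rels, (r.map g).prod = 1) (hH : ∀ r ∈ subs, (r.map g).prod ∈ H)
    (j u : ℕ) (hu : u < M) (h : dp_d_15 j u = true) : Good (fa g) T MG M (cP g H) Lt.d u := by
  unfold dp_d_15 at h
  rcases brec_true h with h | h
  · exact dp_d_13_s hinv hr hH j u hu h
  · exact dp_d_14_s hinv hr hH j u hu h
theorem dp_d_16_s (hinv : ∀ x, g (inv x) = (g x)⁻¹) (hr : ∀ r ∈ rels, (r.map g).prod = 1) (hH : ∀ r ∈ subs, (r.map g).prod ∈ H)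
    (j u : ℕ) (hu : u < M) (h : dp_d_16 j u = true) : Good (fa g) T MG M (cP g H) Lt.d u := by
  unfold dp_d_16 at h
  rcases brec_true h with h | h
  · exact lS_good (T := T) (x := Lt.d) (by decide) hu [Lt.bi, Lt.di, Lt.ei, Lt.ei, Lt.b, Lt.d, Lt.e, Lt.di, Lt.bi, Lt.e, Lt.e] (hole_rel hinv hr (by decide +kernel)) h
  · exact lF_good (T := T) (x := Lt.d) (by decide) [Lt.e, Lt.di, Lt.bi, Lt.e, Lt.e, Lt.d, Lt.bi, Lt.di, Lt.ei, Lt.ei, Lt.b] (hole_rel hinv hr (by decide +kernel)) h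
theorem dp_d_17_s (hinv : ∀ x, g (inv x) = (g x)⁻¹) (hr : ∀ r ∈ rels, (r.map g).prod = 1) (hH : ∀ r ∈ subs, (r.map g).prod ∈ H)
    (j u : ℕ) (hu : u < M) (h : dp_d_17 j u = true) : Good (fa g) T MG M (cP g H) Lt.d u := by
  unfold dp_d_17 at h
  rcases brec_true h with h | h
  · exact lS_good (T := T) (x := Lt.d) (by decide) hu [Lt.ei, Lt.di, Lt.bi, Lt.e, Lt.e, Lt.d, Lt.b, Lt.di, Lt.ei, Lt.ei, Lt.b] (hole_rel hinv hr (by decide +kernel)) h
  · exact lS_good (T := T) (x := Lt.d) (by decide) hu [Lt.b, Lt.e, Lt.di, Lt.b, Lt.ei, Lt.bi, Lt.d, Lt.ei, Lt.bi, Lt.di, Lt.e] (hole_rel hinv hr (by decide +kernel)) h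
theorem dp_d_18_s (hinv : ∀ x, g (inv x) = (g x)⁻¹) (hr : ∀ r ∈ rels, (r.map g).prod = 1) (hH : ∀ r ∈ subs, (r.map g).prod ∈ H)
    (j u : ℕ) (hu : u < M) (h : dp_d_18 j u = true) : Good (fa g) T MG M (cP g H) Lt.d u := by
  unfold dp_d_18 at h
  rcases brec_true h with h | h
  · exact lF_good (T := T) (x := Lt.d) (by decide) [Lt.ei, Lt.di, Lt.bi, Lt.e, Lt.e, Lt.d, Lt.b, Lt.di, Lt.ei, Lt.ei, Lt.b] (hole_rel hinv hr (by decide +kernel)) h
  · exact dp_d_17_s hinv hr hH j u hu h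
theorem dp_d_19_s (hinv : ∀ x, g (inv x) = (g x)⁻¹) (hr : ∀ r ∈ rels, (r.map g).prod = 1) (hH : ∀ r ∈ subs, (r.map g).prod ∈ H)
    (j u : ℕ) (hu : u < M) (h : dp_d_19 j u = true) : Good (fa g) T MG M (cP g H) Lt.d u := by
  unfold dp_d_19 at h
  rcases brec_true h with h | h
  · exact dp_d_16_s hinv hr hH j u hu h
  · exact dp_d_18_s hinv hr hH j u hu h
theorem dp_d_20_s (hinv : ∀ x, g (inv x) = (g x)⁻¹) (hr : ∀ r ∈ rels, (r.map g).prod = 1) (hH : ∀ r ∈ subs, (r.map g).prod ∈ H)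
    (j u : ℕ) (hu : u < M) (h : dp_d_20 j u = true) : Good (fa g) T MG M (cP g H) Lt.d u := by
  unfold dp_d_20 at h
  rcases brec_true h with h | h
  · exact dp_d_15_s hinv hr hH j u hu h
  · exact dp_d_19_s hinv hr hH j u hu h
theorem dp_d_21_s (hinv : ∀ x, g (inv x) = (g x)⁻¹) (hr : ∀ r ∈ rels, (r.map g).prod = 1) (hH : ∀ r ∈ subs, (r.map g).prod ∈ H)
    (j u : ℕ) (hu : u < M) (h : dp_d_21 j u = true) : Good (fa g) T MG M (cP g H) Lt.d u := by
  unfold dp_d_21 at h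
  rcases brec_true h with h | h
  · exact dp_d_12_s hinv hr hH j u hu h
  · exact dp_d_20_s hinv hr hH j u hu h
theorem dp_d_22_s (hinv : ∀ x, g (inv x) = (g x)⁻¹) (hr : ∀ r ∈ rels, (r.map g).prod = 1) (hH : ∀ r ∈ subs, (r.map g).prod ∈ H)
    (j u : ℕ) (hu : u < M) (h : dp_d_22 j u = true) : Good (fa g) T MG M (cP g H) Lt.d u := by
  unfold dp_d_22 at h
  rcases brec_true h with h | h
  · exact dp_d_9_s hinv hr hH j u hu h
  · exact dp_d_21_s hinv hr hH j u hu h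
theorem dp_d_23_s (hinv : ∀ x, g (inv x) = (g x)⁻¹) (hr : ∀ r ∈ rels, (r.map g).prod = 1) (hH : ∀ r ∈ subs, (r.map g).prod ∈ H)
    (j u : ℕ) (hu : u < M) (h : dp_d_23 j u = true) : Good (fa g) T MG M (cP g H) Lt.d u := by
  unfold dp_d_23 at h
  rcases brec_true h with h | h
  · exact dp_d_5_s hinv hr hH j u hu h
  · exact dp_d_22_s hinv hr hH j u hu h
theorem dp_d_24_s (hinv : ∀ x, g (inv x) = (g x)⁻¹) (hr : ∀ r ∈ rels, (r.map g).prod = 1) (hH : ∀ r ∈ subs, (r.map g).prod ∈ H)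
    (j u : ℕ) (hu : u < M) (h : dp_d_24 j u = true) : Good (fa g) T MG M (cP g H) Lt.d u := by
  unfold dp_d_24 at h
  rcases brec_true h with h | h
  · exact dp_d_2_s hinv hr hH j u hu h
  · exact dp_d_23_s hinv hr hH j u hu h
theorem dp_d_25_s (hinv : ∀ x, g (inv x) = (g x)⁻¹) (hr : ∀ r ∈ rels, (r.map g).prod = 1) (hH : ∀ r ∈ subs, (r.map g).prod ∈ H)
    (j u : ℕ) (hu : u < M) (h : dp_d_25 j u = true) : Good (fa g) T MG M (cP g H) Lt.d u := by
  unfold dp_d_25 at h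
  rcases brec_true h with h | h
  · rcases brec_true h with h | h
    · exact lF_good (T := T) (x := Lt.d) (by decide) [Lt.d, Lt.d, Lt.d, Lt.d] (hole_rel hinv hr (by decide +kernel)) h
    · exact lF_good (T := T) (x := Lt.d) (by decide) [Lt.b, Lt.di, Lt.bi, Lt.bi, Lt.bi] (hole_rel hinv hr (by decide +kernel)) h
  · exact dp_d_24_s hinv hr hH j u hu h
theorem snd_d (hinv : ∀ x, g (inv x) = (g x)⁻¹) (hr : ∀ r ∈ rels, (r.map g).prod = 1) (hH : ∀ r ∈ subs, (r.map g).prod ∈ H)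
    (j u : ℕ) (hu : u < M) (h : disp_d j u = true) : Good (fa g) T MG M (cP g H) Lt.d u := by
  unfold disp_d at h
  rcases brec_true h with h | h
  · rcases brec_true h with h | h
    · exact lF1_good (T := T) (x := Lt.d) (by decide) .di (hole_rel hinv hr (by decide +kernel)) h
    · exact lDef_good (T := T) (x := Lt.d) (by decide) rfl h
  · rcases brec_true h with h | h
    · rcases brec_true h with h | h
      · exact lPar_good (T := T) (x := Lt.d) (x' := Lt.di) (by decide) rfl (inv_rel hinv _ _ rfl) h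
      · exact lS_good (T := T) (x := Lt.d) (by decide) hu [Lt.di] (hole_rel hinv hr (by decide +kernel)) h
    · exact dp_d_25_s hinv hr hH j u hu h
theorem snc_d (hinv : ∀ x, g (inv x) = (g x)⁻¹) (hr : ∀ r ∈ rels, (r.map g).prod = 1) (hH : ∀ r ∈ subs, (r.map g).prod ∈ H)
    (j u : ℕ) (hu : u < M) (h : chk_d j u = true) : (T Lt.d u < A ∧ Good (fa g) T MG M (cP g H) Lt.d u) ∨ (A ≤ T Lt.d u ∧ MG u < A) := by
  unfold chk_d at h
  cases hb : Nat.ble A (T_d u) with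
  | true => rw [hb] at h; exact Or.inr ⟨le_of_ble hb, le_of_ble h⟩
  | false => rw [hb] at h; exact Or.inl ⟨lt_of_ble_false hb, snd_d hinv hr hH j u hu h⟩
theorem dp_di_0_s (hinv : ∀ x, g (inv x) = (g x)⁻¹) (hr : ∀ r ∈ rels, (r.map g).prod = 1) (hH : ∀ r ∈ subs, (r.map g).prod ∈ H)
    (j u : ℕ) (hu : u < M) (h : dp_di_0 j u = true) : Good (fa g) T MG M (cP g H) Lt.di u := by
  unfold dp_di_0 at h
  rcases brec_true h with h | h
  · exact lF_good (T := T) (x := Lt.di) (by decide) [Lt.ei, Lt.b, Lt.d, Lt.d, Lt.bi, Lt.e] (hole_rel hinv hr (by decide +kernel)) h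
  · exact lF_good (T := T) (x := Lt.di) (by decide) [Lt.b, Lt.b, Lt.b, Lt.d, Lt.bi] (hole_rel hinv hr (by decide +kernel)) h
theorem dp_di_1_s (hinv : ∀ x, g (inv x) = (g x)⁻¹) (hr : ∀ r ∈ rels, (r.map g).prod = 1) (hH : ∀ r ∈ subs, (r.map g).prod ∈ H)
    (j u : ℕ) (hu : u < M) (h : dp_di_1 j u = true) : Good (fa g) T MG M (cP g H) Lt.di u := by
  unfold dp_di_1 at h
  rcases brec_true h with h | h
  · exact lF_good (T := T) (x := Lt.di) (by decide) [Lt.di, Lt.bi, Lt.e, Lt.d, Lt.ei, Lt.b] (hole_rel hinv hr (by decide +kernel)) h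
  · exact lS_good (T := T) (x := Lt.di) (by decide) hu [Lt.b, Lt.b, Lt.b, Lt.d, Lt.bi] (hole_rel hinv hr (by decide +kernel)) h
theorem dp_di_2_s (hinv : ∀ x, g (inv x) = (g x)⁻¹) (hr : ∀ r ∈ rels, (r.map g).prod = 1) (hH : ∀ r ∈ subs, (r.map g).prod ∈ H)
    (j u : ℕ) (hu : u < M) (h : dp_di_2 j u = true) : Good (fa g) T MG M (cP g H) Lt.di u := by
  unfold dp_di_2 at h
  rcases brec_true h with h | h
  · exact lS_good (T := T) (x := Lt.di) (by decide) hu [Lt.ei, Lt.b, Lt.d, Lt.d, Lt.bi, Lt.e] (hole_rel hinv hr (by decide +kernel)) h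
  · exact dp_di_1_s hinv hr hH j u hu h
theorem dp_di_3_s (hinv : ∀ x, g (inv x) = (g x)⁻¹) (hr : ∀ r ∈ rels, (r.map g).prod = 1) (hH : ∀ r ∈ subs, (r.map g).prod ∈ H)
    (j u : ℕ) (hu : u < M) (h : dp_di_3 j u = true) : Good (fa g) T MG M (cP g H) Lt.di u := by
  unfold dp_di_3 at h
  rcases brec_true h with h | h
  · exact lF_good (T := T) (x := Lt.di) (by decide) [Lt.bi, Lt.bi, Lt.bi, Lt.d, Lt.b] (hole_rel hinv hr (by decide +kernel)) h
  · exact dp_di_2_s hinv hr hH j u hu h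
theorem dp_di_4_s (hinv : ∀ x, g (inv x) = (g x)⁻¹) (hr : ∀ r ∈ rels, (r.map g).prod = 1) (hH : ∀ r ∈ subs, (r.map g).prod ∈ H)
    (j u : ℕ) (hu : u < M) (h : dp_di_4 j u = true) : Good (fa g) T MG M (cP g H) Lt.di u := by
  unfold dp_di_4 at h
  rcases brec_true h with h | h
  · exact lF_good (T := T) (x := Lt.di) (by decide) [Lt.di, Lt.bi, Lt.bi, Lt.d, Lt.d, Lt.bi] (hole_rel hinv hr (by decide +kernel)) h
  · exact lF_good (T := T) (x := Lt.di) (by decide) [Lt.bi, Lt.bi, Lt.d, Lt.d, Lt.bi, Lt.di] (hole_rel hinv hr (by decide +kernel)) h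
theorem dp_di_5_s (hinv : ∀ x, g (inv x) = (g x)⁻¹) (hr : ∀ r ∈ rels, (r.map g).prod = 1) (hH : ∀ r ∈ subs, (r.map g).prod ∈ H)
    (j u : ℕ) (hu : u < M) (h : dp_di_5 j u = true) : Good (fa g) T MG M (cP g H) Lt.di u := by
  unfold dp_di_5 at h
  rcases brec_true h with h | h
  · exact lF_good (T := T) (x := Lt.di) (by decide) [Lt.di, Lt.b, Lt.b, Lt.d, Lt.d, Lt.b] (hole_rel hinv hr (by decide +kernel)) h
  · exact lS_good (T := T) (x := Lt.di) (by decide) hu [Lt.bi, Lt.bi, Lt.bi, Lt.d, Lt.b] (hole_rel hinv hr (by decide +kernel)) h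
theorem dp_di_6_s (hinv : ∀ x, g (inv x) = (g x)⁻¹) (hr : ∀ r ∈ rels, (r.map g).prod = 1) (hH : ∀ r ∈ subs, (r.map g).prod ∈ H)
    (j u : ℕ) (hu : u < M) (h : dp_di_6 j u = true) : Good (fa g) T MG M (cP g H) Lt.di u := by
  unfold dp_di_6 at h
  rcases brec_true h with h | h
  · exact lF_good (T := T) (x := Lt.di) (by decide) [Lt.b, Lt.b, Lt.d, Lt.d, Lt.b, Lt.di] (hole_rel hinv hr (by decide +kernel)) h
  · exact dp_di_5_s hinv hr hH j u hu h
theorem dp_di_7_s (hinv : ∀ x, g (inv x) = (g x)⁻¹) (hr : ∀ r ∈ rels, (r.map g).prod = 1) (hH : ∀ r ∈ subs, (r.map g).prod ∈ H)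
    (j u : ℕ) (hu : u < M) (h : dp_di_7 j u = true) : Good (fa g) T MG M (cP g H) Lt.di u := by
  unfold dp_di_7 at h
  rcases brec_true h with h | h
  · exact dp_di_4_s hinv hr hH j u hu h
  · exact dp_di_6_s hinv hr hH j u hu h
theorem dp_di_8_s (hinv : ∀ x, g (inv x) = (g x)⁻¹) (hr : ∀ r ∈ rels, (r.map g).prod = 1) (hH : ∀ r ∈ subs, (r.map g).prod ∈ H)
    (j u : ℕ) (hu : u < M) (h : dp_di_8 j u = true) : Good (fa g) T MG M (cP g H) Lt.di u := by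
  unfold dp_di_8 at h
  rcases brec_true h with h | h
  · exact lS_good (T := T) (x := Lt.di) (by decide) hu [Lt.di, Lt.di, Lt.di, Lt.di] (hole_rel hinv hr (by decide +kernel)) h
  · exact lS_good (T := T) (x := Lt.di) (by decide) hu [Lt.ei, Lt.ei, Lt.b, Lt.d, Lt.ei, Lt.di, Lt.bi, Lt.e, Lt.e, Lt.d, Lt.b] (hole_rel hinv hr (by decide +kernel)) h
theorem dp_di_9_s (hinv : ∀ x, g (inv x) = (g x)⁻¹) (hr : ∀ r ∈ rels, (r.map g).prod = 1) (hH : ∀ r ∈ subs, (r.map g).prod ∈ H)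
    (j u : ℕ) (hu : u < M) (h : dp_di_9 j u = true) : Good (fa g) T MG M (cP g H) Lt.di u := by
  unfold dp_di_9 at h
  rcases brec_true h with h | h
  · exact lS_good (T := T) (x := Lt.di) (by decide) hu [Lt.di, Lt.bi, Lt.bi, Lt.d, Lt.d, Lt.bi] (hole_rel hinv hr (by decide +kernel)) h
  · exact lS_good (T := T) (x := Lt.di) (by decide) hu [Lt.e, Lt.d, Lt.b, Lt.e, Lt.di, Lt.b, Lt.ei, Lt.bi, Lt.d, Lt.ei, Lt.bi] (hole_rel hinv hr (by decide +kernel)) h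
theorem dp_di_10_s (hinv : ∀ x, g (inv x) = (g x)⁻¹) (hr : ∀ r ∈ rels, (r.map g).prod = 1) (hH : ∀ r ∈ subs, (r.map g).prod ∈ H)
    (j u : ℕ) (hu : u < M) (h : dp_di_10 j u = true) : Good (fa g) T MG M (cP g H) Lt.di u := by
  unfold dp_di_10 at h
  rcases brec_true h with h | h
  · exact lS_good (T := T) (x := Lt.di) (by decide) hu [Lt.bi, Lt.e, Lt.e, Lt.d, Lt.b, Lt.di, Lt.ei, Lt.ei, Lt.b, Lt.d, Lt.ei] (hole_rel hinv hr (by decide +kernel)) h
  · exact dp_di_9_s hinv hr hH j u hu h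
theorem dp_di_11_s (hinv : ∀ x, g (inv x) = (g x)⁻¹) (hr : ∀ r ∈ rels, (r.map g).prod = 1) (hH : ∀ r ∈ subs, (r.map g).prod ∈ H)
    (j u : ℕ) (hu : u < M) (h : dp_di_11 j u = true) : Good (fa g) T MG M (cP g H) Lt.di u := by
  unfold dp_di_11 at h
  rcases brec_true h with h | h
  · exact dp_di_8_s hinv hr hH j u hu h
  · exact dp_di_10_s hinv hr hH j u hu h
theorem dp_di_12_s (hinv : ∀ x, g (inv x) = (g x)⁻¹) (hr : ∀ r ∈ rels, (r.map g).prod = 1) (hH : ∀ r ∈ subs, (r.map g).prod ∈ H)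
    (j u : ℕ) (hu : u < M) (h : dp_di_12 j u = true) : Good (fa g) T MG M (cP g H) Lt.di u := by
  unfold dp_di_12 at h
  rcases brec_true h with h | h
  · exact lS_good (T := T) (x := Lt.di) (by decide) hu [Lt.ei, Lt.d, Lt.b, Lt.e, Lt.di, Lt.b, Lt.e, Lt.bi, Lt.d, Lt.ei, Lt.bi] (hole_rel hinv hr (by decide +kernel)) h
  · exact lF_good (T := T) (x := Lt.di) (by decide) [Lt.ei, Lt.ei, Lt.b, Lt.d, Lt.ei, Lt.di, Lt.bi, Lt.e, Lt.e, Lt.d, Lt.b] (hole_rel hinv hr (by decide +kernel)) h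
theorem dp_di_13_s (hinv : ∀ x, g (inv x) = (g x)⁻¹) (hr : ∀ r ∈ rels, (r.map g).prod = 1) (hH : ∀ r ∈ subs, (r.map g).prod ∈ H)
    (j u : ℕ) (hu : u < M) (h : dp_di_13 j u = true) : Good (fa g) T MG M (cP g H) Lt.di u := by
  unfold dp_di_13 at h
  rcases brec_true h with h | h
  · exact lS_good (T := T) (x := Lt.di) (by decide) hu [Lt.b, Lt.b, Lt.d, Lt.d, Lt.b, Lt.di] (hole_rel hinv hr (by decide +kernel)) h
  · exact lS_good (T := T) (x := Lt.di) (by decide) hu [Lt.di, Lt.bi, Lt.e, Lt.d, Lt.ei, Lt.b] (hole_rel hinv hr (by decide +kernel)) h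
theorem dp_di_14_s (hinv : ∀ x, g (inv x) = (g x)⁻¹) (hr : ∀ r ∈ rels, (r.map g).prod = 1) (hH : ∀ r ∈ subs, (r.map g).prod ∈ H)
    (j u : ℕ) (hu : u < M) (h : dp_di_14 j u = true) : Good (fa g) T MG M (cP g H) Lt.di u := by
  unfold dp_di_14 at h
  rcases brec_true h with h | h
  · exact lF_good (T := T) (x := Lt.di) (by decide) [Lt.b, Lt.e, Lt.bi, Lt.d, Lt.ei, Lt.bi, Lt.di, Lt.ei, Lt.d, Lt.b, Lt.e] (hole_rel hinv hr (by decide +kernel)) h
  · exact dp_di_13_s hinv hr hH j u hu h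
theorem dp_di_15_s (hinv : ∀ x, g (inv x) = (g x)⁻¹) (hr : ∀ r ∈ rels, (r.map g).prod = 1) (hH : ∀ r ∈ subs, (r.map g).prod ∈ H)
    (j u : ℕ) (hu : u < M) (h : dp_di_15 j u = true) : Good (fa g) T MG M (cP g H) Lt.di u := by
  unfold dp_di_15 at h
  rcases brec_true h with h | h
  · exact dp_di_12_s hinv hr hH j u hu h
  · exact dp_di_14_s hinv hr hH j u hu h
theorem dp_di_16_s (hinv : ∀ x, g (inv x) = (g x)⁻¹) (hr : ∀ r ∈ rels, (r.map g).prod = 1) (hH : ∀ r ∈ subs, (r.map g).prod ∈ H)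
    (j u : ℕ) (hu : u < M) (h : dp_di_16 j u = true) : Good (fa g) T MG M (cP g H) Lt.di u := by
  unfold dp_di_16 at h
  rcases brec_true h with h | h
  · exact lS_good (T := T) (x := Lt.di) (by decide) hu [Lt.ei, Lt.ei, Lt.b, Lt.d, Lt.e, Lt.di, Lt.bi, Lt.e, Lt.e, Lt.d, Lt.bi] (hole_rel hinv hr (by decide +kernel)) h
  · exact lS_good (T := T) (x := Lt.di) (by decide) hu [Lt.bi, Lt.e, Lt.d, Lt.ei, Lt.b, Lt.di] (hole_rel hinv hr (by decide +kernel)) h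
theorem dp_di_17_s (hinv : ∀ x, g (inv x) = (g x)⁻¹) (hr : ∀ r ∈ rels, (r.map g).prod = 1) (hH : ∀ r ∈ subs, (r.map g).prod ∈ H)
    (j u : ℕ) (hu : u < M) (h : dp_di_17 j u = true) : Good (fa g) T MG M (cP g H) Lt.di u := by
  unfold dp_di_17 at h
  rcases brec_true h with h | h
  · exact lF_good (T := T) (x := Lt.di) (by decide) [Lt.ei, Lt.ei, Lt.b, Lt.d, Lt.e, Lt.di, Lt.bi, Lt.e, Lt.e, Lt.d, Lt.bi] (hole_rel hinv hr (by decide +kernel)) h
  · exact dp_di_16_s hinv hr hH j u hu h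
theorem dp_di_18_s (hinv : ∀ x, g (inv x) = (g x)⁻¹) (hr : ∀ r ∈ rels, (r.map g).prod = 1) (hH : ∀ r ∈ subs, (r.map g).prod ∈ H)
    (j u : ℕ) (hu : u < M) (h : dp_di_18 j u = true) : Good (fa g) T MG M (cP g H) Lt.di u := by
  unfold dp_di_18 at h
  rcases brec_true h with h | h
  · exact lF_good (T := T) (x := Lt.di) (by decide) [Lt.e, Lt.d, Lt.b, Lt.e, Lt.di, Lt.b, Lt.ei, Lt.bi, Lt.d, Lt.ei, Lt.bi] (hole_rel hinv hr (by decide +kernel)) h
  · exact lF_good (T := T) (x := Lt.di) (by decide) [Lt.bi, Lt.e, Lt.e, Lt.d, Lt.b, Lt.di, Lt.ei, Lt.ei, Lt.b, Lt.d, Lt.ei] (hole_rel hinv hr (by decide +kernel)) h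
theorem dp_di_19_s (hinv : ∀ x, g (inv x) = (g x)⁻¹) (hr : ∀ r ∈ rels, (r.map g).prod = 1) (hH : ∀ r ∈ subs, (r.map g).prod ∈ H)
    (j u : ℕ) (hu : u < M) (h : dp_di_19 j u = true) : Good (fa g) T MG M (cP g H) Lt.di u := by
  unfold dp_di_19 at h
  rcases brec_true h with h | h
  · exact lS_good (T := T) (x := Lt.di) (by decide) hu [Lt.b, Lt.e, Lt.bi, Lt.d, Lt.ei, Lt.bi, Lt.di, Lt.ei, Lt.d, Lt.b, Lt.e] (hole_rel hinv hr (by decide +kernel)) h
  · exact lS_good (T := T) (x := Lt.di) (by decide) hu [Lt.b, Lt.ei, Lt.bi, Lt.d, Lt.ei, Lt.bi, Lt.di, Lt.e, Lt.d, Lt.b, Lt.e] (hole_rel hinv hr (by decide +kernel)) h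
theorem dp_di_20_s (hinv : ∀ x, g (inv x) = (g x)⁻¹) (hr : ∀ r ∈ rels, (r.map g).prod = 1) (hH : ∀ r ∈ subs, (r.map g).prod ∈ H)
    (j u : ℕ) (hu : u < M) (h : dp_di_20 j u = true) : Good (fa g) T MG M (cP g H) Lt.di u := by
  unfold dp_di_20 at h
  rcases brec_true h with h | h
  · exact dp_di_18_s hinv hr hH j u hu h
  · exact dp_di_19_s hinv hr hH j u hu h
theorem dp_di_21_s (hinv : ∀ x, g (inv x) = (g x)⁻¹) (hr : ∀ r ∈ rels, (r.map g).prod = 1) (hH : ∀ r ∈ subs, (r.map g).prod ∈ H)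
    (j u : ℕ) (hu : u < M) (h : dp_di_21 j u = true) : Good (fa g) T MG M (cP g H) Lt.di u := by
  unfold dp_di_21 at h
  rcases brec_true h with h | h
  · exact dp_di_17_s hinv hr hH j u hu h
  · exact dp_di_20_s hinv hr hH j u hu h
theorem dp_di_22_s (hinv : ∀ x, g (inv x) = (g x)⁻¹) (hr : ∀ r ∈ rels, (r.map g).prod = 1) (hH : ∀ r ∈ subs, (r.map g).prod ∈ H)
    (j u : ℕ) (hu : u < M) (h : dp_di_22 j u = true) : Good (fa g) T MG M (cP g H) Lt.di u := by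
  unfold dp_di_22 at h
  rcases brec_true h with h | h
  · exact dp_di_15_s hinv hr hH j u hu h
  · exact dp_di_21_s hinv hr hH j u hu h
theorem dp_di_23_s (hinv : ∀ x, g (inv x) = (g x)⁻¹) (hr : ∀ r ∈ rels, (r.map g).prod = 1) (hH : ∀ r ∈ subs, (r.map g).prod ∈ H)
    (j u : ℕ) (hu : u < M) (h : dp_di_23 j u = true) : Good (fa g) T MG M (cP g H) Lt.di u := by
  unfold dp_di_23 at h
  rcases brec_true h with h | h
  · exact dp_di_11_s hinv hr hH j u hu h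
  · exact dp_di_22_s hinv hr hH j u hu h
theorem dp_di_24_s (hinv : ∀ x, g (inv x) = (g x)⁻¹) (hr : ∀ r ∈ rels, (r.map g).prod = 1) (hH : ∀ r ∈ subs, (r.map g).prod ∈ H)
    (j u : ℕ) (hu : u < M) (h : dp_di_24 j u = true) : Good (fa g) T MG M (cP g H) Lt.di u := by
  unfold dp_di_24 at h
  rcases brec_true h with h | h
  · exact dp_di_7_s hinv hr hH j u hu h
  · exact dp_di_23_s hinv hr hH j u hu h
theorem dp_di_25_s (hinv : ∀ x, g (inv x) = (g x)⁻¹) (hr : ∀ r ∈ rels, (r.map g).prod = 1) (hH : ∀ r ∈ subs, (r.map g).prod ∈ H)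
    (j u : ℕ) (hu : u < M) (h : dp_di_25 j u = true) : Good (fa g) T MG M (cP g H) Lt.di u := by
  unfold dp_di_25 at h
  rcases brec_true h with h | h
  · exact dp_di_3_s hinv hr hH j u hu h
  · exact dp_di_24_s hinv hr hH j u hu h
theorem dp_di_26_s (hinv : ∀ x, g (inv x) = (g x)⁻¹) (hr : ∀ r ∈ rels, (r.map g).prod = 1) (hH : ∀ r ∈ subs, (r.map g).prod ∈ H)
    (j u : ℕ) (hu : u < M) (h : dp_di_26 j u = true) : Good (fa g) T MG M (cP g H) Lt.di u := by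
  unfold dp_di_26 at h
  rcases brec_true h with h | h
  · rcases brec_true h with h | h
    · exact lF_good (T := T) (x := Lt.di) (by decide) [Lt.di, Lt.di, Lt.di, Lt.di] (hole_rel hinv hr (by decide +kernel)) h
    · exact dp_di_0_s hinv hr hH j u hu h
  · exact dp_di_25_s hinv hr hH j u hu h
theorem snd_di (hinv : ∀ x, g (inv x) = (g x)⁻¹) (hr : ∀ r ∈ rels, (r.map g).prod = 1) (hH : ∀ r ∈ subs, (r.map g).prod ∈ H)
    (j u : ℕ) (hu : u < M) (h : disp_di j u = true) : Good (fa g) T MG M (cP g H) Lt.di u := by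
  unfold disp_di at h
  rcases brec_true h with h | h
  · rcases brec_true h with h | h
    · exact lF1_good (T := T) (x := Lt.di) (by decide) .d (hole_rel hinv hr (by decide +kernel)) h
    · exact lPar_good (T := T) (x := Lt.di) (x' := Lt.d) (by decide) rfl (inv_rel hinv _ _ rfl) h
  · rcases brec_true h with h | h
    · rcases brec_true h with h | h
      · exact lDef_good (T := T) (x := Lt.di) (by decide) rfl h
      · exact lS_good (T := T) (x := Lt.di) (by decide) hu [Lt.d] (hole_rel hinv hr (by decide +kernel)) h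
    · exact dp_di_26_s hinv hr hH j u hu h
theorem snc_di (hinv : ∀ x, g (inv x) = (g x)⁻¹) (hr : ∀ r ∈ rels, (r.map g).prod = 1) (hH : ∀ r ∈ subs, (r.map g).prod ∈ H)
    (j u : ℕ) (hu : u < M) (h : chk_di j u = true) : (T Lt.di u < A ∧ Good (fa g) T MG M (cP g H) Lt.di u) ∨ (A ≤ T Lt.di u ∧ MG u < A) := by
  unfold chk_di at h
  cases hb : Nat.ble A (T_di u) with
  | true => rw [hb] at h; exact Or.inr ⟨le_of_ble hb, le_of_ble h⟩
  | false => rw [hb] at h; exact Or.inl ⟨lt_of_ble_false hb, snd_di hinv hr hH j u hu h⟩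
theorem dp_e_0_s (hinv : ∀ x, g (inv x) = (g x)⁻¹) (hr : ∀ r ∈ rels, (r.map g).prod = 1) (hH : ∀ r ∈ subs, (r.map g).prod ∈ H)
    (j u : ℕ) (hu : u < M) (h : dp_e_0 j u = true) : Good (fa g) T MG M (cP g H) Lt.e u := by
  unfold dp_e_0 at h
  rcases brec_true h with h | h
  · exact lF_good (T := T) (x := Lt.e) (by decide) [Lt.di, Lt.ei, Lt.b, Lt.d, Lt.d, Lt.bi] (hole_rel hinv hr (by decide +kernel)) h
  · exact lF_good (T := T) (x := Lt.e) (by decide) [Lt.d, Lt.ei, Lt.b, Lt.di, Lt.di, Lt.bi] (hole_rel hinv hr (by decide +kernel)) h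
theorem dp_e_1_s (hinv : ∀ x, g (inv x) = (g x)⁻¹) (hr : ∀ r ∈ rels, (r.map g).prod = 1) (hH : ∀ r ∈ subs, (r.map g).prod ∈ H)
    (j u : ℕ) (hu : u < M) (h : dp_e_1 j u = true) : Good (fa g) T MG M (cP g H) Lt.e u := by
  unfold dp_e_1 at h
  rcases brec_true h with h | h
  · exact lS_good (T := T) (x := Lt.e) (by decide) hu [Lt.di, Lt.ei, Lt.b, Lt.d, Lt.d, Lt.bi] (hole_rel hinv hr (by decide +kernel)) h
  · exact lS_good (T := T) (x := Lt.e) (by decide) hu [Lt.d, Lt.ei, Lt.b, Lt.di, Lt.di, Lt.bi] (hole_rel hinv hr (by decide +kernel)) h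
theorem dp_e_2_s (hinv : ∀ x, g (inv x) = (g x)⁻¹) (hr : ∀ r ∈ rels, (r.map g).prod = 1) (hH : ∀ r ∈ subs, (r.map g).prod ∈ H)
    (j u : ℕ) (hu : u < M) (h : dp_e_2 j u = true) : Good (fa g) T MG M (cP g H) Lt.e u := by
  unfold dp_e_2 at h
  rcases brec_true h with h | h
  · exact lF_good (T := T) (x := Lt.e) (by decide) [Lt.di, Lt.bi, Lt.e, Lt.e, Lt.d, Lt.bi, Lt.di, Lt.ei, Lt.ei, Lt.b, Lt.d] (hole_rel hinv hr (by decide +kernel)) h
  · exact lS_good (T := T) (x := Lt.e) (by decide) hu [Lt.di, Lt.bi, Lt.e, Lt.e, Lt.d, Lt.bi, Lt.di, Lt.ei, Lt.ei, Lt.b, Lt.d] (hole_rel hinv hr (by decide +kernel)) h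
theorem dp_e_3_s (hinv : ∀ x, g (inv x) = (g x)⁻¹) (hr : ∀ r ∈ rels, (r.map g).prod = 1) (hH : ∀ r ∈ subs, (r.map g).prod ∈ H)
    (j u : ℕ) (hu : u < M) (h : dp_e_3 j u = true) : Good (fa g) T MG M (cP g H) Lt.e u := by
  unfold dp_e_3 at h
  rcases brec_true h with h | h
  · exact lS_good (T := T) (x := Lt.e) (by decide) hu [Lt.d, Lt.b, Lt.e, Lt.di, Lt.b, Lt.ei, Lt.bi, Lt.d, Lt.ei, Lt.bi, Lt.di] (hole_rel hinv hr (by decide +kernel)) h
  · exact dp_e_2_s hinv hr hH j u hu h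
theorem dp_e_4_s (hinv : ∀ x, g (inv x) = (g x)⁻¹) (hr : ∀ r ∈ rels, (r.map g).prod = 1) (hH : ∀ r ∈ subs, (r.map g).prod ∈ H)
    (j u : ℕ) (hu : u < M) (h : dp_e_4 j u = true) : Good (fa g) T MG M (cP g H) Lt.e u := by
  unfold dp_e_4 at h
  rcases brec_true h with h | h
  · exact lF_good (T := T) (x := Lt.e) (by decide) [Lt.e, Lt.d, Lt.bi, Lt.di, Lt.ei, Lt.ei, Lt.b, Lt.d, Lt.e, Lt.di, Lt.bi] (hole_rel hinv hr (by decide +kernel)) h
  · exact lS_good (T := T) (x := Lt.e) (by decide) hu [Lt.bi, Lt.d, Lt.ei, Lt.bi, Lt.di, Lt.ei, Lt.d, Lt.b, Lt.e, Lt.di, Lt.b] (hole_rel hinv hr (by decide +kernel)) h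
theorem dp_e_5_s (hinv : ∀ x, g (inv x) = (g x)⁻¹) (hr : ∀ r ∈ rels, (r.map g).prod = 1) (hH : ∀ r ∈ subs, (r.map g).prod ∈ H)
    (j u : ℕ) (hu : u < M) (h : dp_e_5 j u = true) : Good (fa g) T MG M (cP g H) Lt.e u := by
  unfold dp_e_5 at h
  rcases brec_true h with h | h
  · exact lS_good (T := T) (x := Lt.e) (by decide) hu [Lt.d, Lt.bi, Lt.di, Lt.ei, Lt.ei, Lt.b, Lt.d, Lt.e, Lt.di, Lt.bi, Lt.e] (hole_rel hinv hr (by decide +kernel)) h
  · exact dp_e_4_s hinv hr hH j u hu h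
theorem dp_e_6_s (hinv : ∀ x, g (inv x) = (g x)⁻¹) (hr : ∀ r ∈ rels, (r.map g).prod = 1) (hH : ∀ r ∈ subs, (r.map g).prod ∈ H)
    (j u : ℕ) (hu : u < M) (h : dp_e_6 j u = true) : Good (fa g) T MG M (cP g H) Lt.e u := by
  unfold dp_e_6 at h
  rcases brec_true h with h | h
  · exact lF_good (T := T) (x := Lt.e) (by decide) [Lt.d, Lt.bi, Lt.di, Lt.ei, Lt.ei, Lt.b, Lt.d, Lt.e, Lt.di, Lt.bi, Lt.e] (hole_rel hinv hr (by decide +kernel)) h
  · exact lS_good (T := T) (x := Lt.e) (by decide) hu [Lt.e, Lt.d, Lt.bi, Lt.di, Lt.ei, Lt.ei, Lt.b, Lt.d, Lt.e, Lt.di, Lt.bi] (hole_rel hinv hr (by decide +kernel)) h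
theorem dp_e_7_s (hinv : ∀ x, g (inv x) = (g x)⁻¹) (hr : ∀ r ∈ rels, (r.map g).prod = 1) (hH : ∀ r ∈ subs, (r.map g).prod ∈ H)
    (j u : ℕ) (hu : u < M) (h : dp_e_7 j u = true) : Good (fa g) T MG M (cP g H) Lt.e u := by
  unfold dp_e_7 at h
  rcases brec_true h with h | h
  · exact lS_good (T := T) (x := Lt.e) (by decide) hu [Lt.e, Lt.d, Lt.b, Lt.di, Lt.ei, Lt.ei, Lt.b, Lt.d, Lt.ei, Lt.di, Lt.bi] (hole_rel hinv hr (by decide +kernel)) h
  · exact dp_e_6_s hinv hr hH j u hu h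
theorem dp_e_8_s (hinv : ∀ x, g (inv x) = (g x)⁻¹) (hr : ∀ r ∈ rels, (r.map g).prod = 1) (hH : ∀ r ∈ subs, (r.map g).prod ∈ H)
    (j u : ℕ) (hu : u < M) (h : dp_e_8 j u = true) : Good (fa g) T MG M (cP g H) Lt.e u := by
  unfold dp_e_8 at h
  rcases brec_true h with h | h
  · exact lS_good (T := T) (x := Lt.e) (by decide) hu [Lt.di, Lt.b, Lt.ei, Lt.bi, Lt.d, Lt.ei, Lt.bi, Lt.di, Lt.e, Lt.d, Lt.b] (hole_rel hinv hr (by decide +kernel)) h
  · exact lS_good (T := T) (x := Lt.e) (by decide) hu [Lt.d, Lt.b, Lt.di, Lt.ei, Lt.ei, Lt.b, Lt.d, Lt.ei, Lt.di, Lt.bi, Lt.e] (hole_rel hinv hr (by decide +kernel)) h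
theorem dp_e_9_s (hinv : ∀ x, g (inv x) = (g x)⁻¹) (hr : ∀ r ∈ rels, (r.map g).prod = 1) (hH : ∀ r ∈ subs, (r.map g).prod ∈ H)
    (j u : ℕ) (hu : u < M) (h : dp_e_9 j u = true) : Good (fa g) T MG M (cP g H) Lt.e u := by
  unfold dp_e_9 at h
  rcases brec_true h with h | h
  · exact lF_good (T := T) (x := Lt.e) (by decide) [Lt.d, Lt.b, Lt.e, Lt.di, Lt.b, Lt.ei, Lt.bi, Lt.d, Lt.ei, Lt.bi, Lt.di] (hole_rel hinv hr (by decide +kernel)) h
  · exact lF_good (T := T) (x := Lt.e) (by decide) [Lt.d, Lt.b, Lt.di, Lt.ei, Lt.ei, Lt.b, Lt.d, Lt.ei, Lt.di, Lt.bi, Lt.e] (hole_rel hinv hr (by decide +kernel)) h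
theorem dp_e_10_s (hinv : ∀ x, g (inv x) = (g x)⁻¹) (hr : ∀ r ∈ rels, (r.map g).prod = 1) (hH : ∀ r ∈ subs, (r.map g).prod ∈ H)
    (j u : ℕ) (hu : u < M) (h : dp_e_10 j u = true) : Good (fa g) T MG M (cP g H) Lt.e u := by
  unfold dp_e_10 at h
  rcases brec_true h with h | h
  · exact lS_good (T := T) (x := Lt.e) (by decide) hu [Lt.di, Lt.b, Lt.e, Lt.bi, Lt.d, Lt.ei, Lt.bi, Lt.di, Lt.ei, Lt.d, Lt.b] (hole_rel hinv hr (by decide +kernel)) h
  · exact dp_e_9_s hinv hr hH j u hu h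
theorem dp_e_11_s (hinv : ∀ x, g (inv x) = (g x)⁻¹) (hr : ∀ r ∈ rels, (r.map g).prod = 1) (hH : ∀ r ∈ subs, (r.map g).prod ∈ H)
    (j u : ℕ) (hu : u < M) (h : dp_e_11 j u = true) : Good (fa g) T MG M (cP g H) Lt.e u := by
  unfold dp_e_11 at h
  rcases brec_true h with h | h
  · exact dp_e_8_s hinv hr hH j u hu h
  · exact dp_e_10_s hinv hr hH j u hu h
theorem dp_e_12_s (hinv : ∀ x, g (inv x) = (g x)⁻¹) (hr : ∀ r ∈ rels, (r.map g).prod = 1) (hH : ∀ r ∈ subs, (r.map g).prod ∈ H)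
    (j u : ℕ) (hu : u < M) (h : dp_e_12 j u = true) : Good (fa g) T MG M (cP g H) Lt.e u := by
  unfold dp_e_12 at h
  rcases brec_true h with h | h
  · exact dp_e_7_s hinv hr hH j u hu h
  · exact dp_e_11_s hinv hr hH j u hu h
theorem dp_e_13_s (hinv : ∀ x, g (inv x) = (g x)⁻¹) (hr : ∀ r ∈ rels, (r.map g).prod = 1) (hH : ∀ r ∈ subs, (r.map g).prod ∈ H)
    (j u : ℕ) (hu : u < M) (h : dp_e_13 j u = true) : Good (fa g) T MG M (cP g H) Lt.e u := by
  unfold dp_e_13 at h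
  rcases brec_true h with h | h
  · exact dp_e_5_s hinv hr hH j u hu h
  · exact dp_e_12_s hinv hr hH j u hu h
theorem dp_e_14_s (hinv : ∀ x, g (inv x) = (g x)⁻¹) (hr : ∀ r ∈ rels, (r.map g).prod = 1) (hH : ∀ r ∈ subs, (r.map g).prod ∈ H)
    (j u : ℕ) (hu : u < M) (h : dp_e_14 j u = true) : Good (fa g) T MG M (cP g H) Lt.e u := by
  unfold dp_e_14 at h
  rcases brec_true h with h | h
  · exact dp_e_3_s hinv hr hH j u hu h
  · exact dp_e_13_s hinv hr hH j u hu h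
theorem dp_e_15_s (hinv : ∀ x, g (inv x) = (g x)⁻¹) (hr : ∀ r ∈ rels, (r.map g).prod = 1) (hH : ∀ r ∈ subs, (r.map g).prod ∈ H)
    (j u : ℕ) (hu : u < M) (h : dp_e_15 j u = true) : Good (fa g) T MG M (cP g H) Lt.e u := by
  unfold dp_e_15 at h
  rcases brec_true h with h | h
  · exact dp_e_1_s hinv hr hH j u hu h
  · exact dp_e_14_s hinv hr hH j u hu h
theorem dp_e_16_s (hinv : ∀ x, g (inv x) = (g x)⁻¹) (hr : ∀ r ∈ rels, (r.map g).prod = 1) (hH : ∀ r ∈ subs, (r.map g).prod ∈ H)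
    (j u : ℕ) (hu : u < M) (h : dp_e_16 j u = true) : Good (fa g) T MG M (cP g H) Lt.e u := by
  unfold dp_e_16 at h
  rcases brec_true h with h | h
  · exact dp_e_0_s hinv hr hH j u hu h
  · exact dp_e_15_s hinv hr hH j u hu h
theorem dp_e_17_s (hinv : ∀ x, g (inv x) = (g x)⁻¹) (hr : ∀ r ∈ rels, (r.map g).prod = 1) (hH : ∀ r ∈ subs, (r.map g).prod ∈ H)
    (j u : ℕ) (hu : u < M) (h : dp_e_17 j u = true) : Good (fa g) T MG M (cP g H) Lt.e u := by
  unfold dp_e_17 at h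
  rcases brec_true h with h | h
  · rcases brec_true h with h | h
    · exact lF1_good (T := T) (x := Lt.e) (by decide) .ei (hole_rel hinv hr (by decide +kernel)) h
    · exact lS_good (T := T) (x := Lt.e) (by decide) hu [Lt.ei] (hole_rel hinv hr (by decide +kernel)) h
  · exact dp_e_16_s hinv hr hH j u hu h
theorem snd_e (hinv : ∀ x, g (inv x) = (g x)⁻¹) (hr : ∀ r ∈ rels, (r.map g).prod = 1) (hH : ∀ r ∈ subs, (r.map g).prod ∈ H)
    (j u : ℕ) (hu : u < M) (h : disp_e j u = true) : Good (fa g) T MG M (cP g H) Lt.e u := by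
  unfold disp_e at h
  rcases brec_true h with h | h
  · rcases brec_true h with h | h
    · exact lPar_good (T := T) (x := Lt.e) (x' := Lt.ei) (by decide) rfl (inv_rel hinv _ _ rfl) h
    · exact lDef_good (T := T) (x := Lt.e) (by decide) rfl h
  · exact dp_e_17_s hinv hr hH j u hu h
theorem snc_e (hinv : ∀ x, g (inv x) = (g x)⁻¹) (hr : ∀ r ∈ rels, (r.map g).prod = 1) (hH : ∀ r ∈ subs, (r.map g).prod ∈ H)
    (j u : ℕ) (hu : u < M) (h : chk_e j u = true) : (T Lt.e u < A ∧ Good (fa g) T MG M (cP g H) Lt.e u) ∨ (A ≤ T Lt.e u ∧ MG u < A) := by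
  unfold chk_e at h
  cases hb : Nat.ble A (T_e u) with
  | true => rw [hb] at h; exact Or.inr ⟨le_of_ble hb, le_of_ble h⟩
  | false => rw [hb] at h; exact Or.inl ⟨lt_of_ble_false hb, snd_e hinv hr hH j u hu h⟩
theorem dp_ei_0_s (hinv : ∀ x, g (inv x) = (g x)⁻¹) (hr : ∀ r ∈ rels, (r.map g).prod = 1) (hH : ∀ r ∈ subs, (r.map g).prod ∈ H)
    (j u : ℕ) (hu : u < M) (h : dp_ei_0 j u = true) : Good (fa g) T MG M (cP g H) Lt.ei u := by
  unfold dp_ei_0 at h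
  rcases brec_true h with h | h
  · exact lF_good (T := T) (x := Lt.ei) (by decide) [Lt.b, Lt.d, Lt.d, Lt.bi, Lt.e, Lt.di] (hole_rel hinv hr (by decide +kernel)) h
  · exact lS_good (T := T) (x := Lt.ei) (by decide) hu [Lt.b, Lt.di, Lt.di, Lt.bi, Lt.e, Lt.d] (hole_rel hinv hr (by decide +kernel)) h
theorem dp_ei_1_s (hinv : ∀ x, g (inv x) = (g x)⁻¹) (hr : ∀ r ∈ rels, (r.map g).prod = 1) (hH : ∀ r ∈ subs, (r.map g).prod ∈ H)
    (j u : ℕ) (hu : u < M) (h : dp_ei_1 j u = true) : Good (fa g) T MG M (cP g H) Lt.ei u := by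
  unfold dp_ei_1 at h
  rcases brec_true h with h | h
  · exact lS_good (T := T) (x := Lt.ei) (by decide) hu [Lt.di, Lt.bi, Lt.e, Lt.e, Lt.d, Lt.b, Lt.di, Lt.ei, Lt.ei, Lt.b, Lt.d] (hole_rel hinv hr (by decide +kernel)) h
  · exact lS_good (T := T) (x := Lt.ei) (by decide) hu [Lt.b, Lt.d, Lt.ei, Lt.di, Lt.bi, Lt.e, Lt.e, Lt.d, Lt.b, Lt.di, Lt.ei] (hole_rel hinv hr (by decide +kernel)) h
theorem dp_ei_2_s (hinv : ∀ x, g (inv x) = (g x)⁻¹) (hr : ∀ r ∈ rels, (r.map g).prod = 1) (hH : ∀ r ∈ subs, (r.map g).prod ∈ H)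
    (j u : ℕ) (hu : u < M) (h : dp_ei_2 j u = true) : Good (fa g) T MG M (cP g H) Lt.ei u := by
  unfold dp_ei_2 at h
  rcases brec_true h with h | h
  · exact lS_good (T := T) (x := Lt.ei) (by decide) hu [Lt.bi, Lt.di, Lt.ei, Lt.d, Lt.b, Lt.e, Lt.di, Lt.b, Lt.e, Lt.bi, Lt.d] (hole_rel hinv hr (by decide +kernel)) h
  · exact dp_ei_1_s hinv hr hH j u hu h
theorem dp_ei_3_s (hinv : ∀ x, g (inv x) = (g x)⁻¹) (hr : ∀ r ∈ rels, (r.map g).prod = 1) (hH : ∀ r ∈ subs, (r.map g).prod ∈ H)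
    (j u : ℕ) (hu : u < M) (h : dp_ei_3 j u = true) : Good (fa g) T MG M (cP g H) Lt.ei u := by
  unfold dp_ei_3 at h
  rcases brec_true h with h | h
  · exact lS_good (T := T) (x := Lt.ei) (by decide) hu [Lt.b, Lt.d, Lt.d, Lt.bi, Lt.e, Lt.di] (hole_rel hinv hr (by decide +kernel)) h
  · exact dp_ei_2_s hinv hr hH j u hu h
theorem dp_ei_4_s (hinv : ∀ x, g (inv x) = (g x)⁻¹) (hr : ∀ r ∈ rels, (r.map g).prod = 1) (hH : ∀ r ∈ subs, (r.map g).prod ∈ H)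
    (j u : ℕ) (hu : u < M) (h : dp_ei_4 j u = true) : Good (fa g) T MG M (cP g H) Lt.ei u := by
  unfold dp_ei_4 at h
  rcases brec_true h with h | h
  · exact lS_good (T := T) (x := Lt.ei) (by decide) hu [Lt.d, Lt.b, Lt.e, Lt.di, Lt.b, Lt.e, Lt.bi, Lt.d, Lt.ei, Lt.bi, Lt.di] (hole_rel hinv hr (by decide +kernel)) h
  · exact lS_good (T := T) (x := Lt.ei) (by decide) hu [Lt.bi, Lt.di, Lt.e, Lt.d, Lt.b, Lt.e, Lt.di, Lt.b, Lt.ei, Lt.bi, Lt.d] (hole_rel hinv hr (by decide +kernel)) h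
theorem dp_ei_5_s (hinv : ∀ x, g (inv x) = (g x)⁻¹) (hr : ∀ r ∈ rels, (r.map g).prod = 1) (hH : ∀ r ∈ subs, (r.map g).prod ∈ H)
    (j u : ℕ) (hu : u < M) (h : dp_ei_5 j u = true) : Good (fa g) T MG M (cP g H) Lt.ei u := by
  unfold dp_ei_5 at h
  rcases brec_true h with h | h
  · exact lF_good (T := T) (x := Lt.ei) (by decide) [Lt.b, Lt.d, Lt.ei, Lt.di, Lt.bi, Lt.e, Lt.e, Lt.d, Lt.b, Lt.di, Lt.ei] (hole_rel hinv hr (by decide +kernel)) h
  · exact lS_good (T := T) (x := Lt.ei) (by decide) hu [Lt.ei, Lt.b, Lt.d, Lt.e, Lt.di, Lt.bi, Lt.e, Lt.e, Lt.d, Lt.bi, Lt.di] (hole_rel hinv hr (by decide +kernel)) h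
theorem dp_ei_6_s (hinv : ∀ x, g (inv x) = (g x)⁻¹) (hr : ∀ r ∈ rels, (r.map g).prod = 1) (hH : ∀ r ∈ subs, (r.map g).prod ∈ H)
    (j u : ℕ) (hu : u < M) (h : dp_ei_6 j u = true) : Good (fa g) T MG M (cP g H) Lt.ei u := by
  unfold dp_ei_6 at h
  rcases brec_true h with h | h
  · exact dp_ei_4_s hinv hr hH j u hu h
  · exact dp_ei_5_s hinv hr hH j u hu h
theorem dp_ei_7_s (hinv : ∀ x, g (inv x) = (g x)⁻¹) (hr : ∀ r ∈ rels, (r.map g).prod = 1) (hH : ∀ r ∈ subs, (r.map g).prod ∈ H)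
    (j u : ℕ) (hu : u < M) (h : dp_ei_7 j u = true) : Good (fa g) T MG M (cP g H) Lt.ei u := by
  unfold dp_ei_7 at h
  rcases brec_true h with h | h
  · exact lF_good (T := T) (x := Lt.ei) (by decide) [Lt.b, Lt.d, Lt.e, Lt.di, Lt.bi, Lt.e, Lt.e, Lt.d, Lt.bi, Lt.di, Lt.ei] (hole_rel hinv hr (by decide +kernel)) h
  · exact lS_good (T := T) (x := Lt.ei) (by decide) hu [Lt.ei, Lt.b, Lt.d, Lt.ei, Lt.di, Lt.bi, Lt.e, Lt.e, Lt.d, Lt.b, Lt.di] (hole_rel hinv hr (by decide +kernel)) h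
theorem dp_ei_8_s (hinv : ∀ x, g (inv x) = (g x)⁻¹) (hr : ∀ r ∈ rels, (r.map g).prod = 1) (hH : ∀ r ∈ subs, (r.map g).prod ∈ H)
    (j u : ℕ) (hu : u < M) (h : dp_ei_8 j u = true) : Good (fa g) T MG M (cP g H) Lt.ei u := by
  unfold dp_ei_8 at h
  rcases brec_true h with h | h
  · exact lF_good (T := T) (x := Lt.ei) (by decide) [Lt.bi, Lt.di, Lt.ei, Lt.d, Lt.b, Lt.e, Lt.di, Lt.b, Lt.e, Lt.bi, Lt.d] (hole_rel hinv hr (by decide +kernel)) h
  · exact dp_ei_7_s hinv hr hH j u hu h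
theorem dp_ei_9_s (hinv : ∀ x, g (inv x) = (g x)⁻¹) (hr : ∀ r ∈ rels, (r.map g).prod = 1) (hH : ∀ r ∈ subs, (r.map g).prod ∈ H)
    (j u : ℕ) (hu : u < M) (h : dp_ei_9 j u = true) : Good (fa g) T MG M (cP g H) Lt.ei u := by
  unfold dp_ei_9 at h
  rcases brec_true h with h | h
  · exact lF_good (T := T) (x := Lt.ei) (by decide) [Lt.bi, Lt.di, Lt.e, Lt.d, Lt.b, Lt.e, Lt.di, Lt.b, Lt.ei, Lt.bi, Lt.d] (hole_rel hinv hr (by decide +kernel)) h
  · exact lF_good (T := T) (x := Lt.ei) (by decide) [Lt.d, Lt.b, Lt.e, Lt.di, Lt.b, Lt.e, Lt.bi, Lt.d, Lt.ei, Lt.bi, Lt.di] (hole_rel hinv hr (by decide +kernel)) h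
theorem dp_ei_10_s (hinv : ∀ x, g (inv x) = (g x)⁻¹) (hr : ∀ r ∈ rels, (r.map g).prod = 1) (hH : ∀ r ∈ subs, (r.map g).prod ∈ H)
    (j u : ℕ) (hu : u < M) (h : dp_ei_10 j u = true) : Good (fa g) T MG M (cP g H) Lt.ei u := by
  unfold dp_ei_10 at h
  rcases brec_true h with h | h
  · exact lF_good (T := T) (x := Lt.ei) (by decide) [Lt.di, Lt.bi, Lt.e, Lt.e, Lt.d, Lt.b, Lt.di, Lt.ei, Lt.ei, Lt.b, Lt.d] (hole_rel hinv hr (by decide +kernel)) h
  · exact lS_good (T := T) (x := Lt.ei) (by decide) hu [Lt.b, Lt.d, Lt.e, Lt.di, Lt.bi, Lt.e, Lt.e, Lt.d, Lt.bi, Lt.di, Lt.ei] (hole_rel hinv hr (by decide +kernel)) h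
theorem dp_ei_11_s (hinv : ∀ x, g (inv x) = (g x)⁻¹) (hr : ∀ r ∈ rels, (r.map g).prod = 1) (hH : ∀ r ∈ subs, (r.map g).prod ∈ H)
    (j u : ℕ) (hu : u < M) (h : dp_ei_11 j u = true) : Good (fa g) T MG M (cP g H) Lt.ei u := by
  unfold dp_ei_11 at h
  rcases brec_true h with h | h
  · exact lF_good (T := T) (x := Lt.ei) (by decide) [Lt.bi, Lt.d, Lt.ei, Lt.bi, Lt.di, Lt.e, Lt.d, Lt.b, Lt.e, Lt.di, Lt.b] (hole_rel hinv hr (by decide +kernel)) h
  · exact lS_good (T := T) (x := Lt.ei) (by decide) hu [Lt.bi, Lt.d, Lt.ei, Lt.bi, Lt.di, Lt.e, Lt.d, Lt.b, Lt.e, Lt.di, Lt.b] (hole_rel hinv hr (by decide +kernel)) h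
theorem dp_ei_12_s (hinv : ∀ x, g (inv x) = (g x)⁻¹) (hr : ∀ r ∈ rels, (r.map g).prod = 1) (hH : ∀ r ∈ subs, (r.map g).prod ∈ H)
    (j u : ℕ) (hu : u < M) (h : dp_ei_12 j u = true) : Good (fa g) T MG M (cP g H) Lt.ei u := by
  unfold dp_ei_12 at h
  rcases brec_true h with h | h
  · exact dp_ei_10_s hinv hr hH j u hu h
  · exact dp_ei_11_s hinv hr hH j u hu h
theorem dp_ei_13_s (hinv : ∀ x, g (inv x) = (g x)⁻¹) (hr : ∀ r ∈ rels, (r.map g).prod = 1) (hH : ∀ r ∈ subs, (r.map g).prod ∈ H)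
    (j u : ℕ) (hu : u < M) (h : dp_ei_13 j u = true) : Good (fa g) T MG M (cP g H) Lt.ei u := by
  unfold dp_ei_13 at h
  rcases brec_true h with h | h
  · exact dp_ei_9_s hinv hr hH j u hu h
  · exact dp_ei_12_s hinv hr hH j u hu h
theorem dp_ei_14_s (hinv : ∀ x, g (inv x) = (g x)⁻¹) (hr : ∀ r ∈ rels, (r.map g).prod = 1) (hH : ∀ r ∈ subs, (r.map g).prod ∈ H)
    (j u : ℕ) (hu : u < M) (h : dp_ei_14 j u = true) : Good (fa g) T MG M (cP g H) Lt.ei u := by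
  unfold dp_ei_14 at h
  rcases brec_true h with h | h
  · exact dp_ei_8_s hinv hr hH j u hu h
  · exact dp_ei_13_s hinv hr hH j u hu h
theorem dp_ei_15_s (hinv : ∀ x, g (inv x) = (g x)⁻¹) (hr : ∀ r ∈ rels, (r.map g).prod = 1) (hH : ∀ r ∈ subs, (r.map g).prod ∈ H)
    (j u : ℕ) (hu : u < M) (h : dp_ei_15 j u = true) : Good (fa g) T MG M (cP g H) Lt.ei u := by
  unfold dp_ei_15 at h
  rcases brec_true h with h | h
  · exact dp_ei_6_s hinv hr hH j u hu h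
  · exact dp_ei_14_s hinv hr hH j u hu h
theorem dp_ei_16_s (hinv : ∀ x, g (inv x) = (g x)⁻¹) (hr : ∀ r ∈ rels, (r.map g).prod = 1) (hH : ∀ r ∈ subs, (r.map g).prod ∈ H)
    (j u : ℕ) (hu : u < M) (h : dp_ei_16 j u = true) : Good (fa g) T MG M (cP g H) Lt.ei u := by
  unfold dp_ei_16 at h
  rcases brec_true h with h | h
  · exact dp_ei_3_s hinv hr hH j u hu h
  · exact dp_ei_15_s hinv hr hH j u hu h
theorem dp_ei_17_s (hinv : ∀ x, g (inv x) = (g x)⁻¹) (hr : ∀ r ∈ rels, (r.map g).prod = 1) (hH : ∀ r ∈ subs, (r.map g).prod ∈ H)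
    (j u : ℕ) (hu : u < M) (h : dp_ei_17 j u = true) : Good (fa g) T MG M (cP g H) Lt.ei u := by
  unfold dp_ei_17 at h
  rcases brec_true h with h | h
  · exact dp_ei_0_s hinv hr hH j u hu h
  · exact dp_ei_16_s hinv hr hH j u hu h
theorem dp_ei_18_s (hinv : ∀ x, g (inv x) = (g x)⁻¹) (hr : ∀ r ∈ rels, (r.map g).prod = 1) (hH : ∀ r ∈ subs, (r.map g).prod ∈ H)
    (j u : ℕ) (hu : u < M) (h : dp_ei_18 j u = true) : Good (fa g) T MG M (cP g H) Lt.ei u := by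
  unfold dp_ei_18 at h
  rcases brec_true h with h | h
  · rcases brec_true h with h | h
    · exact lS_good (T := T) (x := Lt.ei) (by decide) hu [Lt.e] (hole_rel hinv hr (by decide +kernel)) h
    · exact lF_good (T := T) (x := Lt.ei) (by decide) [Lt.b, Lt.di, Lt.di, Lt.bi, Lt.e, Lt.d] (hole_rel hinv hr (by decide +kernel)) h
  · exact dp_ei_17_s hinv hr hH j u hu h
theorem dp_ei_19_s (hinv : ∀ x, g (inv x) = (g x)⁻¹) (hr : ∀ r ∈ rels, (r.map g).prod = 1) (hH : ∀ r ∈ subs, (r.map g).prod ∈ H)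
    (j u : ℕ) (hu : u < M) (h : dp_ei_19 j u = true) : Good (fa g) T MG M (cP g H) Lt.ei u := by
  unfold dp_ei_19 at h
  rcases brec_true h with h | h
  · exact lF1_good (T := T) (x := Lt.ei) (by decide) .e (hole_rel hinv hr (by decide +kernel)) h
  · exact dp_ei_18_s hinv hr hH j u hu h
theorem snd_ei (hinv : ∀ x, g (inv x) = (g x)⁻¹) (hr : ∀ r ∈ rels, (r.map g).prod = 1) (hH : ∀ r ∈ subs, (r.map g).prod ∈ H)
    (j u : ℕ) (hu : u < M) (h : disp_ei j u = true) : Good (fa g) T MG M (cP g H) Lt.ei u := by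
  unfold disp_ei at h
  rcases brec_true h with h | h
  · rcases brec_true h with h | h
    · exact lDef_good (T := T) (x := Lt.ei) (by decide) rfl h
    · exact lPar_good (T := T) (x := Lt.ei) (x' := Lt.e) (by decide) rfl (inv_rel hinv _ _ rfl) h
  · exact dp_ei_19_s hinv hr hH j u hu h
theorem snc_ei (hinv : ∀ x, g (inv x) = (g x)⁻¹) (hr : ∀ r ∈ rels, (r.map g).prod = 1) (hH : ∀ r ∈ subs, (r.map g).prod ∈ H)
    (j u : ℕ) (hu : u < M) (h : chk_ei j u = true) : (T Lt.ei u < A ∧ Good (fa g) T MG M (cP g H) Lt.ei u) ∨ (A ≤ T Lt.ei u ∧ MG u < A) := by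
  unfold chk_ei at h
  cases hb : Nat.ble A (T_ei u) with
  | true => rw [hb] at h; exact Or.inr ⟨le_of_ble hb, le_of_ble h⟩
  | false => rw [hb] at h; exact Or.inl ⟨lt_of_ble_false hb, snd_ei hinv hr hH j u hu h⟩
theorem dM_0_s (hinv : ∀ x, g (inv x) = (g x)⁻¹) (hr : ∀ r ∈ rels, (r.map g).prod = 1) (j z1 z2 u : ℕ) (h : dM_0 j z1 z2 u = true) : GoodM (fa g) T MG M (cP g H) u := by
  unfold dM_0 at h
  rcases brec_true h with h | h
  · rcases brec_true h with h | h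
    · exact mCo_good (T := T) (y := .bi) (by decide) h
    · exact mCo_good (T := T) (y := .d) (by decide) h
  · rcases brec_true h with h | h
    · exact mCo_good (T := T) (y := .di) (by decide) h
    · exact mCo_good (T := T) (y := .ei) (by decide) h
theorem dM_1_s (hinv : ∀ x, g (inv x) = (g x)⁻¹) (hr : ∀ r ∈ rels, (r.map g).prod = 1) (j z1 z2 u : ℕ) (h : dM_1 j z1 z2 u = true) : GoodM (fa g) T MG M (cP g H) u := by
  unfold dM_1 at h
  rcases brec_true h with h | h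
  · exact mCo_good (T := T) (y := .b) (by decide) h
  · exact mCo_good (T := T) (y := .e) (by decide) h
theorem dM_2_s (hinv : ∀ x, g (inv x) = (g x)⁻¹) (hr : ∀ r ∈ rels, (r.map g).prod = 1) (j z1 z2 u : ℕ) (h : dM_2 j z1 z2 u = true) : GoodM (fa g) T MG M (cP g H) u := by
  unfold dM_2 at h
  rcases brec_true h with h | h
  · rcases brec_true h with h | h
    · rcases brec_true h with h | h
      · exact mRel_good (T := T) (by decide) [Lt.ei, Lt.b, Lt.d, Lt.d, Lt.bi] [Lt.d, Lt.ei] (pair_rel hinv hr (by decide +kernel)) h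
      · exact mRel_good (T := T) (by decide) [Lt.bi, Lt.di, Lt.b] [Lt.di, Lt.bi, Lt.bi] (pair_rel hinv hr (by decide +kernel)) h
    · rcases brec_true h with h | h
      · exact mRel_good (T := T) (by decide) [Lt.bi, Lt.e, Lt.di, Lt.ei] [Lt.di, Lt.di, Lt.bi] (pair_rel hinv hr (by decide +kernel)) h
      · rcases brec_true h with h | h
        · exact mRel_good (T := T) (by decide) [Lt.e, Lt.di] [Lt.b, Lt.di, Lt.di, Lt.bi, Lt.e] (pair_rel hinv hr (by decide +kernel)) h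
        · exact mRel_good (T := T) (by decide) [Lt.ei, Lt.b, Lt.di, Lt.di, Lt.bi] [Lt.di, Lt.ei] (pair_rel hinv hr (by decide +kernel)) h
  · rcases brec_true h with h | h
    · rcases brec_true h with h | h
      · exact mRel_good (T := T) (by decide) [Lt.ei, Lt.b, Lt.di, Lt.di, Lt.bi, Lt.e] [Lt.di] (pair_rel hinv hr (by decide +kernel)) h
      · rcases brec_true h with h | h
        · exact mRel_good (T := T) (by decide) [Lt.bi, Lt.e, Lt.d, Lt.ei] [Lt.d, Lt.d, Lt.bi] (pair_rel hinv hr (by decide +kernel)) h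
        · exact mRel_good (T := T) (by decide) [Lt.e, Lt.d, Lt.ei] [Lt.b, Lt.d, Lt.d, Lt.bi] (pair_rel hinv hr (by decide +kernel)) h
    · rcases brec_true h with h | h
      · rcases brec_true h with h | h
        · exact mRel_good (T := T) (by decide) [Lt.b, Lt.d, Lt.d, Lt.bi] [Lt.e, Lt.d, Lt.ei] (pair_rel hinv hr (by decide +kernel)) h
        · exact mRel_good (T := T) (by decide) [Lt.b, Lt.di, Lt.di, Lt.bi, Lt.e] [Lt.e, Lt.di] (pair_rel hinv hr (by decide +kernel)) h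
      · rcases brec_true h with h | h
        · exact mRel_good (T := T) (by decide) [Lt.d, Lt.bi, Lt.e, Lt.di] [Lt.di, Lt.bi, Lt.e] (pair_rel hinv hr (by decide +kernel)) h
        · exact mRel_good (T := T) (by decide) [Lt.b, Lt.d, Lt.bi] [Lt.bi, Lt.bi, Lt.d] (pair_rel hinv hr (by decide +kernel)) h
theorem dM_3_s (hinv : ∀ x, g (inv x) = (g x)⁻¹) (hr : ∀ r ∈ rels, (r.map g).prod = 1) (j z1 z2 u : ℕ) (h : dM_3 j z1 z2 u = true) : GoodM (fa g) T MG M (cP g H) u := by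
  unfold dM_3 at h
  rcases brec_true h with h | h
  · exact dM_1_s hinv hr j z1 z2 u h
  · exact dM_2_s hinv hr j z1 z2 u h
theorem dM_4_s (hinv : ∀ x, g (inv x) = (g x)⁻¹) (hr : ∀ r ∈ rels, (r.map g).prod = 1) (j z1 z2 u : ℕ) (h : dM_4 j z1 z2 u = true) : GoodM (fa g) T MG M (cP g H) u := by
  unfold dM_4 at h
  rcases brec_true h with h | h
  · rcases brec_true h with h | h
    · rcases brec_true h with h | h
      · exact mRel_good (T := T) (by decide) [Lt.e, Lt.di, Lt.ei] [Lt.b, Lt.di, Lt.di, Lt.bi] (pair_rel hinv hr (by decide +kernel)) h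
      · rcases brec_true h with h | h
        · exact mRel_good (T := T) (by decide) [Lt.bi, Lt.bi, Lt.d] [Lt.b, Lt.d, Lt.bi] (pair_rel hinv hr (by decide +kernel)) h
        · exact mRel_good (T := T) (by decide) [Lt.di, Lt.bi, Lt.e] [Lt.d, Lt.bi, Lt.e, Lt.di] (pair_rel hinv hr (by decide +kernel)) h
    · rcases brec_true h with h | h
      · exact mRel_good (T := T) (by decide) [Lt.d, Lt.b, Lt.di, Lt.bi] [Lt.b, Lt.b] (pair_rel hinv hr (by decide +kernel)) h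
      · rcases brec_true h with h | h
        · exact mRel_good (T := T) (by decide) [Lt.bi, Lt.bi] [Lt.b, Lt.d, Lt.bi, Lt.di] (pair_rel hinv hr (by decide +kernel)) h
        · exact mRel_good (T := T) (by decide) [Lt.e, Lt.d] [Lt.b, Lt.d, Lt.d, Lt.bi, Lt.e] (pair_rel hinv hr (by decide +kernel)) h
  · rcases brec_true h with h | h
    · rcases brec_true h with h | h
      · exact mRel_good (T := T) (by decide) [Lt.d, Lt.d, Lt.bi, Lt.e] [Lt.bi, Lt.e, Lt.d] (pair_rel hinv hr (by decide +kernel)) h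
      · rcases brec_true h with h | h
        · exact mRel_good (T := T) (by decide) [Lt.bi, Lt.e, Lt.d] [Lt.d, Lt.d, Lt.bi, Lt.e] (pair_rel hinv hr (by decide +kernel)) h
        · exact mRel_good (T := T) (by decide) [Lt.d, Lt.d, Lt.bi, Lt.e, Lt.di] [Lt.bi, Lt.e] (pair_rel hinv hr (by decide +kernel)) h
    · rcases brec_true h with h | h
      · exact mRel_good (T := T) (by decide) [Lt.bi, Lt.d, Lt.b, Lt.di] [Lt.b, Lt.b] (pair_rel hinv hr (by decide +kernel)) h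
      · rcases brec_true h with h | h
        · exact mRel_good (T := T) (by decide) [Lt.ei, Lt.b, Lt.d, Lt.d, Lt.bi, Lt.e] [Lt.d] (pair_rel hinv hr (by decide +kernel)) h
        · exact mRel_good (T := T) (by decide) [Lt.b, Lt.di, Lt.di, Lt.bi] [Lt.e, Lt.di, Lt.ei] (pair_rel hinv hr (by decide +kernel)) h
theorem dM_5_s (hinv : ∀ x, g (inv x) = (g x)⁻¹) (hr : ∀ r ∈ rels, (r.map g).prod = 1) (j z1 z2 u : ℕ) (h : dM_5 j z1 z2 u = true) : GoodM (fa g) T MG M (cP g H) u := by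
  unfold dM_5 at h
  rcases brec_true h with h | h
  · rcases brec_true h with h | h
    · rcases brec_true h with h | h
      · exact mRel_good (T := T) (by decide) [Lt.bi, Lt.bi, Lt.bi, Lt.d, Lt.b] [Lt.d] (pair_rel hinv hr (by decide +kernel)) h
      · exact mRel_good (T := T) (by decide) [Lt.bi, Lt.di, Lt.b, Lt.b] [Lt.di, Lt.bi] (pair_rel hinv hr (by decide +kernel)) h
    · rcases brec_true h with h | h
      · exact mRel_good (T := T) (by decide) [Lt.di, Lt.b, Lt.b] [Lt.b, Lt.di, Lt.bi] (pair_rel hinv hr (by decide +kernel)) h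
      · exact mRel_good (T := T) (by decide) [Lt.di, Lt.bi] [Lt.bi, Lt.di, Lt.b, Lt.b] (pair_rel hinv hr (by decide +kernel)) h
  · rcases brec_true h with h | h
    · rcases brec_true h with h | h
      · exact mRel_good (T := T) (by decide) [Lt.di, Lt.bi] [Lt.d, Lt.bi, Lt.e, Lt.di, Lt.ei] (pair_rel hinv hr (by decide +kernel)) h
      · exact mRel_good (T := T) (by decide) [Lt.ei, Lt.di, Lt.bi, Lt.e, Lt.e, Lt.d, Lt.b, Lt.di] [Lt.di, Lt.bi, Lt.e, Lt.e] (pair_rel hinv hr (by decide +kernel)) h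
    · rcases brec_true h with h | h
      · exact mRel_good (T := T) (by decide) [Lt.d, Lt.d] [Lt.di, Lt.di, Lt.di] (pair_rel hinv hr (by decide +kernel)) h
      · exact mRel_good (T := T) (by decide) [Lt.b, Lt.d, Lt.d, Lt.bi, Lt.e] [Lt.e, Lt.d] (pair_rel hinv hr (by decide +kernel)) h
theorem dM_6_s (hinv : ∀ x, g (inv x) = (g x)⁻¹) (hr : ∀ r ∈ rels, (r.map g).prod = 1) (j z1 z2 u : ℕ) (h : dM_6 j z1 z2 u = true) : GoodM (fa g) T MG M (cP g H) u := by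
  unfold dM_6 at h
  rcases brec_true h with h | h
  · rcases brec_true h with h | h
    · rcases brec_true h with h | h
      · exact mRel_good (T := T) (by decide) [Lt.di, Lt.di, Lt.bi, Lt.e, Lt.d, Lt.ei] [Lt.bi] (pair_rel hinv hr (by decide +kernel)) h
      · exact mRel_good (T := T) (by decide) [Lt.bi, Lt.e, Lt.di, Lt.ei, Lt.b] [Lt.di, Lt.di] (pair_rel hinv hr (by decide +kernel)) h
    · rcases brec_true h with h | h
      · exact mRel_good (T := T) (by decide) [Lt.di, Lt.di, Lt.bi, Lt.e, Lt.d] [Lt.bi, Lt.e] (pair_rel hinv hr (by decide +kernel)) h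
      · exact mRel_good (T := T) (by decide) [Lt.d, Lt.bi, Lt.e] [Lt.di, Lt.bi, Lt.e, Lt.d] (pair_rel hinv hr (by decide +kernel)) h
  · rcases brec_true h with h | h
    · rcases brec_true h with h | h
      · exact mRel_good (T := T) (by decide) [Lt.bi, Lt.e] [Lt.di, Lt.di, Lt.bi, Lt.e, Lt.d] (pair_rel hinv hr (by decide +kernel)) h
      · exact mRel_good (T := T) (by decide) [Lt.bi, Lt.e, Lt.di] [Lt.di, Lt.di, Lt.bi, Lt.e] (pair_rel hinv hr (by decide +kernel)) h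
    · rcases brec_true h with h | h
      · exact mRel_good (T := T) (by decide) [Lt.bi, Lt.bi, Lt.bi, Lt.d] [Lt.d, Lt.bi] (pair_rel hinv hr (by decide +kernel)) h
      · rcases brec_true h with h | h
        · exact mRel_good (T := T) (by decide) [Lt.b, Lt.di, Lt.di] [Lt.di, Lt.di, Lt.bi, Lt.bi] (pair_rel hinv hr (by decide +kernel)) h
        · exact mRel_good (T := T) (by decide) [Lt.ei, Lt.b] [Lt.di, Lt.ei, Lt.b, Lt.d, Lt.d] (pair_rel hinv hr (by decide +kernel)) h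
theorem dM_7_s (hinv : ∀ x, g (inv x) = (g x)⁻¹) (hr : ∀ r ∈ rels, (r.map g).prod = 1) (j z1 z2 u : ℕ) (h : dM_7 j z1 z2 u = true) : GoodM (fa g) T MG M (cP g H) u := by
  unfold dM_7 at h
  rcases brec_true h with h | h
  · exact dM_5_s hinv hr j z1 z2 u h
  · exact dM_6_s hinv hr j z1 z2 u h
theorem dM_8_s (hinv : ∀ x, g (inv x) = (g x)⁻¹) (hr : ∀ r ∈ rels, (r.map g).prod = 1) (j z1 z2 u : ℕ) (h : dM_8 j z1 z2 u = true) : GoodM (fa g) T MG M (cP g H) u := by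
  unfold dM_8 at h
  rcases brec_true h with h | h
  · exact dM_4_s hinv hr j z1 z2 u h
  · exact dM_7_s hinv hr j z1 z2 u h
theorem dM_9_s (hinv : ∀ x, g (inv x) = (g x)⁻¹) (hr : ∀ r ∈ rels, (r.map g).prod = 1) (j z1 z2 u : ℕ) (h : dM_9 j z1 z2 u = true) : GoodM (fa g) T MG M (cP g H) u := by
  unfold dM_9 at h
  rcases brec_true h with h | h
  · rcases brec_true h with h | h
    · exact mRel_good (T := T) (by decide) [Lt.d, Lt.bi] [Lt.di, Lt.bi, Lt.e, Lt.d, Lt.ei] (pair_rel hinv hr (by decide +kernel)) h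
    · exact mRel_good (T := T) (by decide) [Lt.e, Lt.di, Lt.ei, Lt.b] [Lt.b, Lt.di, Lt.di] (pair_rel hinv hr (by decide +kernel)) h
  · rcases brec_true h with h | h
    · exact mRel_good (T := T) (by decide) [Lt.bi, Lt.bi, Lt.bi] [Lt.d, Lt.bi, Lt.di] (pair_rel hinv hr (by decide +kernel)) h
    · rcases brec_true h with h | h
      · exact mRel_good (T := T) (by decide) [Lt.di] [Lt.bi, Lt.di, Lt.ei, Lt.ei, Lt.b, Lt.d, Lt.e, Lt.di, Lt.bi, Lt.e, Lt.e] (pair_rel hinv hr (by decide +kernel)) h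
      · exact mRel_good (T := T) (by decide) [Lt.di, Lt.b, Lt.b, Lt.b, Lt.d] [Lt.b] (pair_rel hinv hr (by decide +kernel)) h
theorem dM_10_s (hinv : ∀ x, g (inv x) = (g x)⁻¹) (hr : ∀ r ∈ rels, (r.map g).prod = 1) (j z1 z2 u : ℕ) (h : dM_10 j z1 z2 u = true) : GoodM (fa g) T MG M (cP g H) u := by
  unfold dM_10 at h
  rcases brec_true h with h | h
  · rcases brec_true h with h | h
    · rcases brec_true h with h | h
      · exact mRel_good (T := T) (by decide) [Lt.e, Lt.d, Lt.b, Lt.e, Lt.di, Lt.b] [Lt.d, Lt.b, Lt.e, Lt.di, Lt.b, Lt.e] (pair_rel hinv hr (by decide +kernel)) h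
      · exact mRel_good (T := T) (by decide) [Lt.b, Lt.d, Lt.ei, Lt.di, Lt.bi, Lt.e, Lt.e] [Lt.e, Lt.e, Lt.d, Lt.bi, Lt.di] (pair_rel hinv hr (by decide +kernel)) h
    · rcases brec_true h with h | h
      · exact mRel_good (T := T) (by decide) [Lt.bi, Lt.e, Lt.e, Lt.d, Lt.bi, Lt.di, Lt.ei, Lt.ei] [Lt.d, Lt.ei, Lt.di, Lt.bi] (pair_rel hinv hr (by decide +kernel)) h
      · exact mRel_good (T := T) (by decide) [Lt.d, Lt.d, Lt.d] [Lt.di, Lt.di] (pair_rel hinv hr (by decide +kernel)) h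
  · rcases brec_true h with h | h
    · rcases brec_true h with h | h
      · exact mRel_good (T := T) (by decide) [Lt.bi, Lt.d, Lt.ei, Lt.bi, Lt.di, Lt.ei, Lt.d, Lt.b, Lt.e, Lt.di, Lt.b] [Lt.ei] (pair_rel hinv hr (by decide +kernel)) h
      · exact mRel_good (T := T) (by decide) [Lt.bi, Lt.e, Lt.e, Lt.d, Lt.b, Lt.di, Lt.ei, Lt.ei, Lt.b, Lt.d, Lt.ei] [Lt.d] (pair_rel hinv hr (by decide +kernel)) h
    · rcases brec_true h with h | h
      · exact mRel_good (T := T) (by decide) [Lt.di, Lt.b, Lt.ei, Lt.bi, Lt.d, Lt.ei, Lt.bi, Lt.di, Lt.e, Lt.d] [Lt.ei, Lt.bi] (pair_rel hinv hr (by decide +kernel)) h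
      · rcases brec_true h with h | h
        · exact mRel_good (T := T) (by decide) [Lt.d, Lt.d, Lt.bi] [Lt.b, Lt.b, Lt.d, Lt.d] (pair_rel hinv hr (by decide +kernel)) h
        · exact mRel_good (T := T) (by decide) [Lt.bi, Lt.di] [Lt.di, Lt.bi, Lt.bi, Lt.bi] (pair_rel hinv hr (by decide +kernel)) h
theorem dM_11_s (hinv : ∀ x, g (inv x) = (g x)⁻¹) (hr : ∀ r ∈ rels, (r.map g).prod = 1) (j z1 z2 u : ℕ) (h : dM_11 j z1 z2 u = true) : GoodM (fa g) T MG M (cP g H) u := by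
  unfold dM_11 at h
  rcases brec_true h with h | h
  · exact dM_9_s hinv hr j z1 z2 u h
  · exact dM_10_s hinv hr j z1 z2 u h
theorem dM_12_s (hinv : ∀ x, g (inv x) = (g x)⁻¹) (hr : ∀ r ∈ rels, (r.map g).prod = 1) (j z1 z2 u : ℕ) (h : dM_12 j z1 z2 u = true) : GoodM (fa g) T MG M (cP g H) u := by
  unfold dM_12 at h
  rcases brec_true h with h | h
  · rcases brec_true h with h | h
    · rcases brec_true h with h | h
      · exact mRel_good (T := T) (by decide) [Lt.bi, Lt.di, Lt.di, Lt.bi, Lt.bi] [Lt.di, Lt.di] (pair_rel hinv hr (by decide +kernel)) h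
      · exact mRel_good (T := T) (by decide) [Lt.bi, Lt.d, Lt.ei, Lt.bi, Lt.di, Lt.ei] [Lt.ei, Lt.bi, Lt.d, Lt.ei, Lt.bi, Lt.di] (pair_rel hinv hr (by decide +kernel)) h
    · rcases brec_true h with h | h
      · exact mRel_good (T := T) (by decide) [Lt.e, Lt.di, Lt.b] [Lt.bi, Lt.di, Lt.e, Lt.d, Lt.b, Lt.e, Lt.di, Lt.b, Lt.ei] (pair_rel hinv hr (by decide +kernel)) h
      · exact mRel_good (T := T) (by decide) [Lt.bi, Lt.d, Lt.d, Lt.bi] [Lt.b, Lt.d, Lt.d] (pair_rel hinv hr (by decide +kernel)) h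
  · rcases brec_true h with h | h
    · rcases brec_true h with h | h
      · exact mRel_good (T := T) (by decide) [Lt.e] [Lt.bi, Lt.d, Lt.ei, Lt.bi, Lt.di, Lt.e, Lt.d, Lt.b, Lt.e, Lt.di, Lt.b] (pair_rel hinv hr (by decide +kernel)) h
      · exact mRel_good (T := T) (by decide) [Lt.e, Lt.e, Lt.d, Lt.b, Lt.di, Lt.ei, Lt.ei] [Lt.b, Lt.d, Lt.e, Lt.di, Lt.bi] (pair_rel hinv hr (by decide +kernel)) h
    · rcases brec_true h with h | h
      · exact mRel_good (T := T) (by decide) [Lt.ei, Lt.d, Lt.b, Lt.e, Lt.di, Lt.b, Lt.e] [Lt.d, Lt.b, Lt.e, Lt.di, Lt.b] (pair_rel hinv hr (by decide +kernel)) h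
      · rcases brec_true h with h | h
        · exact mRel_good (T := T) (by decide) [Lt.di, Lt.bi, Lt.bi, Lt.bi, Lt.d] [Lt.bi] (pair_rel hinv hr (by decide +kernel)) h
        · exact mRel_good (T := T) (by decide) [Lt.d, Lt.ei, Lt.b, Lt.di, Lt.di, Lt.bi, Lt.e] [] (pair_rel hinv hr (by decide +kernel)) h
theorem dM_13_s (hinv : ∀ x, g (inv x) = (g x)⁻¹) (hr : ∀ r ∈ rels, (r.map g).prod = 1) (j z1 z2 u : ℕ) (h : dM_13 j z1 z2 u = true) : GoodM (fa g) T MG M (cP g H) u := by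
  unfold dM_13 at h
  rcases brec_true h with h | h
  · rcases brec_true h with h | h
    · rcases brec_true h with h | h
      · exact mRel_good (T := T) (by decide) [Lt.di] [Lt.d, Lt.d, Lt.d, Lt.d] (pair_rel hinv hr (by decide +kernel)) h
      · exact mRel_good (T := T) (by decide) [Lt.e, Lt.d, Lt.bi, Lt.di, Lt.ei, Lt.ei] [Lt.ei, Lt.b, Lt.d, Lt.ei, Lt.di, Lt.bi] (pair_rel hinv hr (by decide +kernel)) h
    · rcases brec_true h with h | h
      · exact mRel_good (T := T) (by decide) [Lt.bi, Lt.d, Lt.ei, Lt.bi, Lt.di] [Lt.e, Lt.bi, Lt.d, Lt.ei, Lt.bi, Lt.di, Lt.ei] (pair_rel hinv hr (by decide +kernel)) h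
      · exact mRel_good (T := T) (by decide) [Lt.e, Lt.e, Lt.d, Lt.bi, Lt.di, Lt.ei] [Lt.b, Lt.d, Lt.ei, Lt.di, Lt.bi, Lt.e] (pair_rel hinv hr (by decide +kernel)) h
  · rcases brec_true h with h | h
    · rcases brec_true h with h | h
      · exact mRel_good (T := T) (by decide) [Lt.b, Lt.b] [Lt.bi, Lt.d, Lt.b, Lt.di] (pair_rel hinv hr (by decide +kernel)) h
      · exact mRel_good (T := T) (by decide) [Lt.ei, Lt.di, Lt.bi, Lt.e, Lt.e, Lt.d] [Lt.di, Lt.bi, Lt.e, Lt.e, Lt.d, Lt.bi] (pair_rel hinv hr (by decide +kernel)) h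
    · rcases brec_true h with h | h
      · exact mRel_good (T := T) (by decide) [Lt.b, Lt.di] [Lt.di, Lt.b, Lt.b, Lt.b] (pair_rel hinv hr (by decide +kernel)) h
      · rcases brec_true h with h | h
        · exact mRel_good (T := T) (by decide) [Lt.d, Lt.e, Lt.di, Lt.bi, Lt.e, Lt.e] [Lt.bi, Lt.e, Lt.e, Lt.d, Lt.b, Lt.di] (pair_rel hinv hr (by decide +kernel)) h
        · exact mRel_good (T := T) (by decide) [Lt.b, Lt.d, Lt.e, Lt.di, Lt.bi] [Lt.e, Lt.e, Lt.d, Lt.b, Lt.di, Lt.ei, Lt.ei] (pair_rel hinv hr (by decide +kernel)) h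
theorem dM_14_s (hinv : ∀ x, g (inv x) = (g x)⁻¹) (hr : ∀ r ∈ rels, (r.map g).prod = 1) (j z1 z2 u : ℕ) (h : dM_14 j z1 z2 u = true) : GoodM (fa g) T MG M (cP g H) u := by
  unfold dM_14 at h
  rcases brec_true h with h | h
  · exact dM_12_s hinv hr j z1 z2 u h
  · exact dM_13_s hinv hr j z1 z2 u h
theorem dM_15_s (hinv : ∀ x, g (inv x) = (g x)⁻¹) (hr : ∀ r ∈ rels, (r.map g).prod = 1) (j z1 z2 u : ℕ) (h : dM_15 j z1 z2 u = true) : GoodM (fa g) T MG M (cP g H) u := by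
  unfold dM_15 at h
  rcases brec_true h with h | h
  · exact dM_11_s hinv hr j z1 z2 u h
  · exact dM_14_s hinv hr j z1 z2 u h
theorem dM_16_s (hinv : ∀ x, g (inv x) = (g x)⁻¹) (hr : ∀ r ∈ rels, (r.map g).prod = 1) (j z1 z2 u : ℕ) (h : dM_16 j z1 z2 u = true) : GoodM (fa g) T MG M (cP g H) u := by
  unfold dM_16 at h
  rcases brec_true h with h | h
  · rcases brec_true h with h | h
    · rcases brec_true h with h | h
      · exact mRel_good (T := T) (by decide) [Lt.d] [Lt.ei, Lt.b, Lt.d, Lt.d, Lt.bi, Lt.e] (pair_rel hinv hr (by decide +kernel)) h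
      · exact mRel_good (T := T) (by decide) [Lt.b, Lt.e, Lt.bi, Lt.d, Lt.ei] [Lt.d, Lt.ei, Lt.bi, Lt.di, Lt.e, Lt.d, Lt.b] (pair_rel hinv hr (by decide +kernel)) h
    · rcases brec_true h with h | h
      · exact mRel_good (T := T) (by decide) [Lt.di, Lt.bi, Lt.bi, Lt.d, Lt.d, Lt.bi] [Lt.d] (pair_rel hinv hr (by decide +kernel)) h
      · exact mRel_good (T := T) (by decide) [Lt.e, Lt.d, Lt.b, Lt.e, Lt.di, Lt.b, Lt.ei, Lt.bi, Lt.d] [Lt.d, Lt.b, Lt.e] (pair_rel hinv hr (by decide +kernel)) h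
  · rcases brec_true h with h | h
    · rcases brec_true h with h | h
      · exact mRel_good (T := T) (by decide) [Lt.di, Lt.b, Lt.ei, Lt.bi, Lt.d] [Lt.ei, Lt.bi, Lt.di, Lt.ei, Lt.d, Lt.b, Lt.e] (pair_rel hinv hr (by decide +kernel)) h
      · exact mRel_good (T := T) (by decide) [Lt.bi, Lt.di, Lt.e, Lt.d, Lt.b, Lt.e, Lt.di, Lt.b] [Lt.e, Lt.di, Lt.b, Lt.e] (pair_rel hinv hr (by decide +kernel)) h
    · rcases brec_true h with h | h
      · exact mRel_good (T := T) (by decide) [Lt.b, Lt.d, Lt.d, Lt.bi, Lt.e, Lt.di] [Lt.e] (pair_rel hinv hr (by decide +kernel)) h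
      · rcases brec_true h with h | h
        · exact mRel_good (T := T) (by decide) [Lt.e, Lt.d, Lt.ei, Lt.b] [Lt.b, Lt.d, Lt.d] (pair_rel hinv hr (by decide +kernel)) h
        · exact mRel_good (T := T) (by decide) [Lt.d, Lt.bi, Lt.di] [Lt.di, Lt.b, Lt.b, Lt.d] (pair_rel hinv hr (by decide +kernel)) h
theorem dM_17_s (hinv : ∀ x, g (inv x) = (g x)⁻¹) (hr : ∀ r ∈ rels, (r.map g).prod = 1) (j z1 z2 u : ℕ) (h : dM_17 j z1 z2 u = true) : GoodM (fa g) T MG M (cP g H) u := by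
  unfold dM_17 at h
  rcases brec_true h with h | h
  · rcases brec_true h with h | h
    · rcases brec_true h with h | h
      · exact mRel_good (T := T) (by decide) [Lt.d, Lt.bi, Lt.e, Lt.di, Lt.ei, Lt.b] [Lt.di] (pair_rel hinv hr (by decide +kernel)) h
      · exact mRel_good (T := T) (by decide) [Lt.d, Lt.d, Lt.b, Lt.di] [Lt.bi, Lt.bi, Lt.d] (pair_rel hinv hr (by decide +kernel)) h
    · rcases brec_true h with h | h
      · exact mRel_good (T := T) (by decide) [Lt.di, Lt.di] [Lt.d, Lt.d, Lt.d] (pair_rel hinv hr (by decide +kernel)) h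
      · exact mRel_good (T := T) (by decide) [Lt.b, Lt.b, Lt.d] [Lt.bi, Lt.d, Lt.b] (pair_rel hinv hr (by decide +kernel)) h
  · rcases brec_true h with h | h
    · rcases brec_true h with h | h
      · exact mRel_good (T := T) (by decide) [Lt.b, Lt.e, Lt.di, Lt.b, Lt.ei, Lt.bi, Lt.d, Lt.ei] [Lt.di, Lt.ei, Lt.d, Lt.b] (pair_rel hinv hr (by decide +kernel)) h
      · exact mRel_good (T := T) (by decide) [Lt.d, Lt.bi, Lt.di, Lt.di, Lt.bi] [Lt.di, Lt.b] (pair_rel hinv hr (by decide +kernel)) h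
    · rcases brec_true h with h | h
      · exact mRel_good (T := T) (by decide) [Lt.ei, Lt.b, Lt.d, Lt.e, Lt.di, Lt.bi] [Lt.e, Lt.d, Lt.b, Lt.di, Lt.ei, Lt.ei] (pair_rel hinv hr (by decide +kernel)) h
      · rcases brec_true h with h | h
        · exact mRel_good (T := T) (by decide) [Lt.d, Lt.d, Lt.bi] [Lt.bi, Lt.e, Lt.d, Lt.ei] (pair_rel hinv hr (by decide +kernel)) h
        · exact mRel_good (T := T) (by decide) [Lt.b, Lt.di, Lt.di, Lt.b] [Lt.di, Lt.di, Lt.bi] (pair_rel hinv hr (by decide +kernel)) h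
theorem dM_18_s (hinv : ∀ x, g (inv x) = (g x)⁻¹) (hr : ∀ r ∈ rels, (r.map g).prod = 1) (j z1 z2 u : ℕ) (h : dM_18 j z1 z2 u = true) : GoodM (fa g) T MG M (cP g H) u := by
  unfold dM_18 at h
  rcases brec_true h with h | h
  · exact dM_16_s hinv hr j z1 z2 u h
  · exact dM_17_s hinv hr j z1 z2 u h
theorem dM_19_s (hinv : ∀ x, g (inv x) = (g x)⁻¹) (hr : ∀ r ∈ rels, (r.map g).prod = 1) (j z1 z2 u : ℕ) (h : dM_19 j z1 z2 u = true) : GoodM (fa g) T MG M (cP g H) u := by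
  unfold dM_19 at h
  rcases brec_true h with h | h
  · rcases brec_true h with h | h
    · rcases brec_true h with h | h
      · exact mRel_good (T := T) (by decide) [Lt.b, Lt.b, Lt.b, Lt.d, Lt.bi] [Lt.d] (pair_rel hinv hr (by decide +kernel)) h
      · exact mRel_good (T := T) (by decide) [Lt.ei, Lt.bi] [Lt.bi, Lt.d, Lt.ei, Lt.bi, Lt.di, Lt.ei, Lt.d, Lt.b, Lt.e, Lt.di] (pair_rel hinv hr (by decide +kernel)) h
    · rcases brec_true h with h | h
      · exact mRel_good (T := T) (by decide) [Lt.d, Lt.bi, Lt.di] [Lt.bi, Lt.bi, Lt.bi] (pair_rel hinv hr (by decide +kernel)) h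
      · exact mRel_good (T := T) (by decide) [Lt.e, Lt.di, Lt.b, Lt.ei, Lt.bi, Lt.d] [Lt.bi, Lt.di, Lt.ei, Lt.d, Lt.b, Lt.e] (pair_rel hinv hr (by decide +kernel)) h
  · rcases brec_true h with h | h
    · rcases brec_true h with h | h
      · exact mRel_good (T := T) (by decide) [Lt.bi] [Lt.di, Lt.di, Lt.bi, Lt.e, Lt.d, Lt.ei] (pair_rel hinv hr (by decide +kernel)) h
      · exact mRel_good (T := T) (by decide) [Lt.b, Lt.ei] [Lt.d, Lt.ei, Lt.bi, Lt.di, Lt.ei, Lt.d, Lt.b, Lt.e, Lt.di, Lt.b] (pair_rel hinv hr (by decide +kernel)) h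
    · rcases brec_true h with h | h
      · exact mRel_good (T := T) (by decide) [Lt.bi] [Lt.d, Lt.d, Lt.bi, Lt.e, Lt.di, Lt.ei] (pair_rel hinv hr (by decide +kernel)) h
      · rcases brec_true h with h | h
        · exact mRel_good (T := T) (by decide) [Lt.di, Lt.di, Lt.bi] [Lt.bi, Lt.e, Lt.di, Lt.ei] (pair_rel hinv hr (by decide +kernel)) h
        · exact mRel_good (T := T) (by decide) [Lt.b, Lt.e, Lt.di, Lt.b, Lt.e] [Lt.di, Lt.e, Lt.d, Lt.b, Lt.e, Lt.di, Lt.b] (pair_rel hinv hr (by decide +kernel)) h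
theorem dM_20_s (hinv : ∀ x, g (inv x) = (g x)⁻¹) (hr : ∀ r ∈ rels, (r.map g).prod = 1) (j z1 z2 u : ℕ) (h : dM_20 j z1 z2 u = true) : GoodM (fa g) T MG M (cP g H) u := by
  unfold dM_20 at h
  rcases brec_true h with h | h
  · rcases brec_true h with h | h
    · rcases brec_true h with h | h
      · exact mRel_good (T := T) (by decide) [Lt.d, Lt.bi] [Lt.bi, Lt.bi, Lt.bi, Lt.d] (pair_rel hinv hr (by decide +kernel)) h
      · exact mRel_good (T := T) (by decide) [Lt.di, Lt.bi, Lt.e, Lt.d, Lt.ei] [Lt.d, Lt.bi] (pair_rel hinv hr (by decide +kernel)) h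
    · rcases brec_true h with h | h
      · exact mRel_good (T := T) (by decide) [Lt.di, Lt.bi, Lt.bi] [Lt.bi, Lt.di, Lt.b] (pair_rel hinv hr (by decide +kernel)) h
      · exact mRel_good (T := T) (by decide) [Lt.e, Lt.d, Lt.bi, Lt.di, Lt.ei] [Lt.ei, Lt.b, Lt.d, Lt.ei, Lt.di, Lt.bi, Lt.e] (pair_rel hinv hr (by decide +kernel)) h
  · rcases brec_true h with h | h
    · rcases brec_true h with h | h
      · exact mRel_good (T := T) (by decide) [Lt.di, Lt.bi, Lt.e, Lt.d] [Lt.d, Lt.bi, Lt.e] (pair_rel hinv hr (by decide +kernel)) h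
      · exact mRel_good (T := T) (by decide) [Lt.di, Lt.b] [Lt.b, Lt.di, Lt.bi, Lt.bi] (pair_rel hinv hr (by decide +kernel)) h
    · rcases brec_true h with h | h
      · exact mRel_good (T := T) (by decide) [Lt.di, Lt.b, Lt.b, Lt.d, Lt.d] [Lt.d, Lt.bi] (pair_rel hinv hr (by decide +kernel)) h
      · rcases brec_true h with h | h
        · exact mRel_good (T := T) (by decide) [Lt.bi, Lt.d, Lt.b, Lt.di, Lt.bi] [Lt.b] (pair_rel hinv hr (by decide +kernel)) h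
        · exact mRel_good (T := T) (by decide) [Lt.di, Lt.di] [Lt.bi, Lt.e, Lt.di, Lt.ei, Lt.b] (pair_rel hinv hr (by decide +kernel)) h
theorem dM_21_s (hinv : ∀ x, g (inv x) = (g x)⁻¹) (hr : ∀ r ∈ rels, (r.map g).prod = 1) (j z1 z2 u : ℕ) (h : dM_21 j z1 z2 u = true) : GoodM (fa g) T MG M (cP g H) u := by
  unfold dM_21 at h
  rcases brec_true h with h | h
  · exact dM_19_s hinv hr j z1 z2 u h
  · exact dM_20_s hinv hr j z1 z2 u h
theorem dM_22_s (hinv : ∀ x, g (inv x) = (g x)⁻¹) (hr : ∀ r ∈ rels, (r.map g).prod = 1) (j z1 z2 u : ℕ) (h : dM_22 j z1 z2 u = true) : GoodM (fa g) T MG M (cP g H) u := by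
  unfold dM_22 at h
  rcases brec_true h with h | h
  · exact dM_18_s hinv hr j z1 z2 u h
  · exact dM_21_s hinv hr j z1 z2 u h
theorem dM_23_s (hinv : ∀ x, g (inv x) = (g x)⁻¹) (hr : ∀ r ∈ rels, (r.map g).prod = 1) (j z1 z2 u : ℕ) (h : dM_23 j z1 z2 u = true) : GoodM (fa g) T MG M (cP g H) u := by
  unfold dM_23 at h
  rcases brec_true h with h | h
  · exact dM_15_s hinv hr j z1 z2 u h
  · exact dM_22_s hinv hr j z1 z2 u h
theorem dM_24_s (hinv : ∀ x, g (inv x) = (g x)⁻¹) (hr : ∀ r ∈ rels, (r.map g).prod = 1) (j z1 z2 u : ℕ) (h : dM_24 j z1 z2 u = true) : GoodM (fa g) T MG M (cP g H) u := by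
  unfold dM_24 at h
  rcases brec_true h with h | h
  · exact dM_8_s hinv hr j z1 z2 u h
  · exact dM_23_s hinv hr j z1 z2 u h
theorem dM_25_s (hinv : ∀ x, g (inv x) = (g x)⁻¹) (hr : ∀ r ∈ rels, (r.map g).prod = 1) (j z1 z2 u : ℕ) (h : dM_25 j z1 z2 u = true) : GoodM (fa g) T MG M (cP g H) u := by
  unfold dM_25 at h
  rcases brec_true h with h | h
  · exact dM_3_s hinv hr j z1 z2 u h
  · exact dM_24_s hinv hr j z1 z2 u h
theorem dM_26_s (hinv : ∀ x, g (inv x) = (g x)⁻¹) (hr : ∀ r ∈ rels, (r.map g).prod = 1) (j z1 z2 u : ℕ) (h : dM_26 j z1 z2 u = true) : GoodM (fa g) T MG M (cP g H) u := by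
  unfold dM_26 at h
  rcases brec_true h with h | h
  · exact dM_0_s hinv hr j z1 z2 u h
  · exact dM_25_s hinv hr j z1 z2 u h
theorem sndM (hinv : ∀ x, g (inv x) = (g x)⁻¹) (hr : ∀ r ∈ rels, (r.map g).prod = 1) (u : ℕ) (h : chkM u = true) :
    MG u < A → MG u % M < u ∧ GoodM (fa g) T MG M (cP g H) u := by
  intro hA
  unfold chkM at h
  cases hb : Nat.ble A (MG u) with
  | true => exact absurd (le_of_ble hb) (by omega)
  | false =>
    rw [hb] at h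
    obtain ⟨h1, h2⟩ := band_eq_true.1 h
    exact ⟨le_of_ble h1, dM_26_s hinv hr _ _ _ _ h2⟩
theorem sndN (hinv : ∀ x, g (inv x) = (g x)⁻¹) (hr : ∀ r ∈ rels, (r.map g).prod = 1) (hH : ∀ r ∈ subs, (r.map g).prod ∈ H)
    (u : ℕ) (hu : u < M) (h : chkP u = true) : (∀ x, (T x u < A ∧ Good (fa g) T MG M (cP g H) x u) ∨ (A ≤ T x u ∧ MG u < A)) ∧ (MG u < A → MG u % M < u ∧ GoodM (fa g) T MG M (cP g H) u) := by
  unfold chkP at h
  cases hb : Nat.ble M u with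
  | true => exact absurd (le_of_ble hb) (by omega)
  | false =>
    rw [hb] at h
    change chkN u = true at h
    unfold chkN at h
    obtain ⟨h0, h⟩ := band_eq_true.1 h
    obtain ⟨h1, h⟩ := band_eq_true.1 h
    obtain ⟨h2, h⟩ := band_eq_true.1 h
    obtain ⟨h3, h⟩ := band_eq_true.1 h
    obtain ⟨h4, h⟩ := band_eq_true.1 h
    obtain ⟨h5, h⟩ := band_eq_true.1 h
    refine ⟨?_, sndM hinv hr u h⟩
    intro x
    cases x
    · exact snc_b hinv hr hH _ u hu h0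
    · exact snc_bi hinv hr hH _ u hu h1
    · exact snc_d hinv hr hH _ u hu h2
    · exact snc_di hinv hr hH _ u hu h3
    · exact snc_e hinv hr hH _ u hu h4
    · exact snc_ei hinv hr hH _ u hu h5
theorem final (hinv : ∀ x, g (inv x) = (g x)⁻¹) (hr : ∀ r ∈ rels, (r.map g).prod = 1) (hH : ∀ r ∈ subs, (r.map g).prod ∈ H)
    (hall : ∀ u, u < M → chkP u = true) (hc : cntB liveP 11 0 = 720) :
    H.relIndex (Subgroup.closure (Set.range g)) ≤ 720 ∧ H.relIndex (Subgroup.closure (Set.range g)) ≠ 0 := by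
  have hn := fun u hu => sndN hinv hr hH u hu (hall u hu)
  have h1 : ∀ x u, u < M → T x u < A → Good (fa g) T MG M (cP g H) x u := by
    intro x u hu hx
    rcases (hn u hu).1 x with h | h
    · exact h.2
    · exact absurd h.1 (by omega)
  have h2 : ∀ u, u < M → MG u < A → GoodM (fa g) T MG M (cP g H) u := fun u hu h => ((hn u hu).2 h).2
  refine relIndex_le (M := M) (A := A) (T := T) (MG := MG) (c := cP g H) (by decide) cc_zero (sound_of_good h1 h2) ?_ ?_ ?_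
  · intro u hu h
    exact ((hn u hu).2 h).1
  · intro x u hu h
    rcases (hn u hu).1 x with h' | h'
    · exact h'.1
    · exact absurd h'.2 (by omega)
  · rw [← hc, ← cntB_spec]
    apply Finset.card_le_card
    intro u
    simp only [Finset.mem_filter, Finset.mem_Ico]
    rintro ⟨⟨_, h3⟩, h4⟩
    refine ⟨⟨Nat.zero_le _, lt_of_lt_of_le h3 (by decide)⟩, ?_⟩
    unfold liveP
    cases hb : Nat.ble M u with
    | true => exact absurd (le_of_ble hb) (by omega)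
    | false => exact h4
end
end H35.TCM11A
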